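import Cfsg.Agent.KnownB.Polar.Link

/-!
# Averages of the Lefschetz numbers over flag stabilisers
-/

set_option autoImplicit false
set_option linter.unusedSectionVars false

namespace Cfsg.Agent.KnownB.Polar

open Cfsg.Agent.Forms Module
open Classical

universe u v

variable {F : Type u} {V : Type v} [Field F] [AddCommGroup V] [Module F V] [Finite V]
variable {σ : F →+* F} {B : V →ₛₗ[σ] V →ₗ[F] F} {N : V → F}

noncomputable instance fintype_isom : Fintype (isomGroup B N) := Fintype.ofFinite _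

/-- The average of `φ` over `H` is `c`. -/
def Avg {G : Type*} [Group G] [Fintype G] (H : Subgroup G) (φ : G → ℤ) (c : ℤ) : Prop :=
  ∑ g : H, φ g = Fintype.card H * c

theorem avg_congr {G : Type*} [Group G] [Fintype G] {H : Subgroup G} {φ ψ : G → ℤ} {c : ℤ}
    (h : Avg H φ c) (hφ : ∀ g ∈ H, φ g = ψ g) : Avg H ψ c := by
  rw [Avg] at *
  rw [← h]
  exact Finset.sum_congr rfl fun g _ => (hφ g g.2).symm

theorem avg_const {G : Type*} [Group G] [Fintype G] (H : Subgroup G) (c : ℤ) : Avg H (fun _ => c) c := by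
  simp [Avg]

theorem avg_surj {G H : Type*} [Group G] [Fintype G] [Group H] [Fintype H] (π : G →* H)
    (hπ : Function.Surjective π) (φ : H → ℤ) {c : ℤ} (h : ∑ x, φ x = Fintype.card H * c) :
    ∑ g, φ (π g) = Fintype.card G * c := by
  obtain ⟨l, hl⟩ := hπ.hasRightInverse
  have h1 : ∀ g, ∑ x, φ (π g * x) = ∑ x, φ x := fun g => Fintype.sum_equiv (Equiv.mulLeft (π g)) _ _ (fun _ => rfl)
  have h2 : ∀ x, ∑ g, φ (π g * x) = ∑ g, φ (π g) := fun x => by
    exact Fintype.sum_equiv (Equiv.mulRight (l x)) _ _ (fun g => by simp [hl x])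
  have key : (Fintype.card G : ℤ) * ∑ x, φ x = Fintype.card H * ∑ g, φ (π g) := by
    calc (Fintype.card G : ℤ) * ∑ x, φ x = ∑ g, ∑ x, φ (π g * x) := by simp [h1]
      _ = ∑ x, ∑ g, φ (π g * x) := Finset.sum_comm
      _ = Fintype.card H * ∑ g, φ (π g) := by simp [h2]
  rw [h] at key
  have hne : (Fintype.card H : ℤ) ≠ 0 := by simp
  exact mul_left_cancel₀ hne (key.symm.trans (by ring))

/-- Summing over the fixed points in an orbit. -/
theorem avg_orbit (H : Subgroup (isomGroup B N)) {O : Finset (Submodule F V)} {y₀ : Submodule F V}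
    (hy₀ : y₀ ∈ O) (hO : ∀ k ∈ H, ∀ y ∈ O, mv k y ∈ O) (htr : ∀ y ∈ O, ∃ k ∈ H, mv k y₀ = y)
    (φ : isomGroup B N → Submodule F V → ℤ) (hφ : ∀ k ∈ H, ∀ g y, φ (k * g * k⁻¹) (mv k y) = φ g y)
    {c : ℤ} (h : Avg (H ⊓ stab B N y₀) (fun g => φ g y₀) c) :
    Avg H (fun g => ∑ y ∈ O.filter (fun y => mv g y = y), φ g y) c := by
  have hst : ∀ y, ∀ ψ : isomGroup B N → ℤ, ∑ g : ↥(H ⊓ stab B N y), ψ g =
      ∑ g : H, if mv g.1 y = y then ψ g else 0 := fun y ψ => by
    rw [← Finset.sum_filter]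
    refine Finset.sum_bij' (fun g _ => (⟨g.1, g.2.1⟩ : H)) (fun g hg => ⟨g.1, g.2, (Finset.mem_filter.1 hg).2⟩)
      (fun g _ => Finset.mem_filter.2 ⟨Finset.mem_univ _, g.2.2⟩) (fun g _ => Finset.mem_univ _)
      (fun g _ => rfl) (fun g _ => rfl) (fun g _ => rfl)
  have hconst : ∀ (ψ : isomGroup B N → Submodule F V → ℤ), (∀ k ∈ H, ∀ g y, ψ (k * g * k⁻¹) (mv k y) = ψ g y) →
      ∀ y ∈ O, ∑ g : H, (if mv g.1 y = y then ψ g y else 0) = ∑ g : H, (if mv g.1 y₀ = y₀ then ψ g y₀ else 0) := by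
    intro ψ hψ y hy
    obtain ⟨k, hk, rfl⟩ := htr y hy
    refine (Fintype.sum_equiv (MulAut.conj (⟨k, hk⟩ : H)).toEquiv _ _ fun g => ?_).symm
    show (if mv g.1 y₀ = y₀ then ψ g.1 y₀ else 0) =
      if mv (k * g.1 * k⁻¹) (mv k y₀) = mv k y₀ then ψ (k * g.1 * k⁻¹) (mv k y₀) else 0
    have hiff : mv (k * g.1 * k⁻¹) (mv k y₀) = mv k y₀ ↔ mv g.1 y₀ = y₀ := by
      rw [mv_mul, mv_mul, mv_inv_mv]
      exact ⟨fun h => by simpa [mv_inv_mv] using congrArg (mv k⁻¹) h, fun h => by rw [h]⟩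
    simp only [hiff, hψ k hk]
  have hsize : O.card * Fintype.card ↥(H ⊓ stab B N y₀) = Fintype.card H := by
    rw [← Finset.card_univ (α := H), Finset.card_eq_sum_card_fiberwise (t := O) (f := fun g : H => mv g.1 y₀)
      (fun g _ => hO _ g.2 _ hy₀), ← smul_eq_mul, ← Finset.sum_const]
    refine Finset.sum_congr rfl fun y hy => ?_
    obtain ⟨k, hk, rfl⟩ := htr y hy
    rw [← Finset.card_univ]
    refine Finset.card_bij' (fun g _ => (⟨k * g.1, mul_mem hk g.2.1⟩ : H))
      (fun g hg => ⟨k⁻¹ * g.1, H.mul_mem (H.inv_mem hk) g.2, ?_⟩) ?_ (fun g _ => Finset.mem_univ _) ?_ ?_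
    · show mv (k⁻¹ * g.1) y₀ = y₀
      rw [mv_mul, (Finset.mem_filter.1 hg).2, mv_inv_mv]
    · intro g _
      refine Finset.mem_filter.2 ⟨Finset.mem_univ _, ?_⟩
      show mv (k * g.1) y₀ = mv k y₀
      rw [mv_mul, mem_stab.1 g.2.2]
    · exact fun g _ => Subtype.ext (inv_mul_cancel_left k g.1)
    · exact fun g _ => Subtype.ext (mul_inv_cancel_left k g.1)
  rw [Avg] at h ⊢
  simp only [Finset.sum_filter]
  rw [Finset.sum_comm, Finset.sum_congr rfl (hconst φ hφ), Finset.sum_const, ← hst y₀ (fun g => φ g y₀), h,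
    ← hsize, nsmul_eq_mul]
  push_cast
  ring

theorem avg_sum {G : Type*} [Group G] [Fintype G] (H : Subgroup G) {ι : Type*} (s : Finset ι)
    (φ : ι → G → ℤ) (c : ι → ℤ) (h : ∀ i ∈ s, Avg H (φ i) (c i)) :
    Avg H (fun g => ∑ i ∈ s, φ i g) (∑ i ∈ s, c i) := by
  rw [Avg]
  rw [Finset.sum_comm, Finset.mul_sum]
  exact Finset.sum_congr rfl h

theorem avg_sub {G : Type*} [Group G] [Fintype G] (H : Subgroup G) {φ ψ : G → ℤ} {a b : ℤ}
    (h : Avg H φ a) (h' : Avg H ψ b) : Avg H (fun g => φ g - ψ g) (a - b) := by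
  simp only [Avg] at *
  rw [Finset.sum_sub_distrib, h, h', mul_sub]

theorem avg_neg {G : Type*} [Group G] [Fintype G] (H : Subgroup G) {φ : G → ℤ} {a : ℤ}
    (h : Avg H φ a) : Avg H (fun g => - φ g) (-a) := by
  simp only [Avg] at *
  rw [Finset.sum_neg_distrib, h, mul_neg]

theorem stabS_insert {e : ℕ → V} (S : Finset ℕ) (s : ℕ) :
    stabS B N e (insert s S) = stabS B N e S ⊓ stab B N (pre e s) := by
  ext g
  simp only [mem_stabS, Subgroup.mem_inf, mem_stab, Finset.forall_mem_insert]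
  exact and_comm

section

variable {m : ℕ} {e f : ℕ → V} (hF : Frame B N m e f) (hf : IsForm σ B N) (hr : HasRank B N m)
include hF hf hr

/-- Expanding the upper link by dimensions. -/
theorem avg_expand {S : Finset ℕ} {t : ℕ} (hS : ∀ a ∈ S, a ≤ t) (ht : t ≤ m) (mv1 : ∀ g ∈ stabS B N e S, mv g (pre e t) = pre e t)
    (φ : isomGroup B N → ℤ) (hφ : ∀ k g, φ (k * g * k⁻¹) = φ g) {a : ℤ} (r : ℕ → ℤ)
    (ha : Avg (stabS B N e S) φ a)
    (hr' : ∀ s ∈ Finset.Ioc t m, Avg (stabS B N e (insert s S)) (fun g => φ g * upper g (pre e s)) (r s)) :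
    Avg (stabS B N e S) (fun g => φ g * upper g (pre e t)) (a - ∑ s ∈ Finset.Ioc t m, r s) := by
  let O : ℕ → Finset (Submodule F V) := fun s =>
    Finset.univ.filter fun W => TS B N W ∧ pre e t < W ∧ finrank F W = s
  refine avg_congr (avg_sub _ ha (avg_sum _ (Finset.Ioc t m)
    (fun s g => ∑ W ∈ (O s).filter (fun W => mv g W = W), φ g * upper g W) r fun s hs => ?_)) ?_
  · obtain ⟨hts, hsm⟩ := Finset.mem_Ioc.1 hs
    have hy₀ : pre e s ∈ O s := by
      simp only [O, Finset.mem_filter]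
      refine ⟨Finset.mem_univ _, ts_pre hF hf hsm, lt_of_le_of_ne (pre_mono e hts.le) fun h => ?_, finrank_pre hF hsm⟩
      have := congrArg (fun W : Submodule F V => finrank F W) h
      simp only [finrank_pre hF hsm, finrank_pre hF ht] at this
      omega
    refine avg_orbit _ hy₀ (fun k hk W hW => ?_) (fun W hW => ?_) (fun g W => φ g * upper g W)
      (fun k _ g W => by simp only [hφ, upper_conj]) ?_
    · simp only [O, Finset.mem_filter] at hW ⊢
      refine ⟨Finset.mem_univ _, ts_mv k hW.2.1, ?_, by rw [finrank_mv, hW.2.2.2]⟩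
      rw [← mv1 k hk]
      exact (mv_lt_iff k).2 hW.2.2.1
    · simp only [O, Finset.mem_filter] at hW
      exact exists_extend hF hf hS hts.le hsm hW.2.1 hW.2.2.1.le hW.2.2.2
    · rw [← stabS_insert]
      exact hr' s hs
  · intro g hg
    rw [upper_expand g (pre e t), mul_sub, mul_one, Finset.mul_sum]
    congr 1
    rw [← Finset.sum_fiberwise_of_maps_to (t := Finset.Ioc t m) (g := fun W : Submodule F V => finrank F W)]
    · refine Finset.sum_congr rfl fun s hs => Finset.sum_congr ?_ fun _ _ => rfl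
      ext W
      simp only [O, Finset.mem_filter, mem_fixSet, Finset.mem_univ, true_and]
      constructor
      · rintro ⟨⟨hT, hlt, hd⟩, hfx⟩
        exact ⟨⟨⟨hT, ne_bot_of_gt hlt, hfx⟩, hlt⟩, hd⟩
      · rintro ⟨⟨⟨hT, -, hfx⟩, hlt⟩, hd⟩
        exact ⟨⟨hT, hlt, hd⟩, hfx⟩
    · intro W hW
      obtain ⟨h1, hlt⟩ := Finset.mem_filter.1 hW
      have := Submodule.finrank_lt_finrank_of_lt hlt
      rw [finrank_pre hF ht] at this
      exact Finset.mem_Ioc.2 ⟨this, hr.2 _ (mem_fixSet.1 h1).1⟩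

/-- Averages of the upper links. -/
theorem avg_upper (d : ℕ) : ∀ {S : Finset ℕ} {t : ℕ}, m - t = d → (∀ a ∈ S, a ≤ t) → t ≤ m →
    (∀ g ∈ stabS B N e S, mv g (pre e t) = pre e t) →
    Avg (stabS B N e S) (fun g => upper g (pre e t)) (if t = m then 1 else 0) := by
  induction d using Nat.strong_induction_on with
  | _ d ih =>
    intro S t hd hS ht hfix
    have h := avg_expand hF hf hr hS ht hfix (fun _ => 1) (fun _ _ => rfl) (fun s => if s = m then 1 else 0)
      (avg_const _ 1) (fun s hs => ?_)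
    · refine avg_congr ?_ (fun g _ => one_mul _)
      convert h using 1
      rw [Finset.sum_ite_eq']
      by_cases htm : t = m
      · simp [htm]
      · rw [if_neg htm, if_pos (Finset.mem_Ioc.2 ⟨by omega, le_rfl⟩), sub_self]
    · obtain ⟨h1, h2⟩ := Finset.mem_Ioc.1 hs
      refine avg_congr (ih (m - s) (by omega) rfl (fun a ha => ?_) h2 (fun g hg => hg s (Finset.mem_insert_self _ _)))
        (fun g _ => (one_mul _).symm)
      rcases Finset.mem_insert.1 ha with rfl | ha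
      · exact le_rfl
      · exact (hS a ha).trans h1.le

end

end Cfsg.Agent.KnownB.Polar
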