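import Cfsg.Agent.KnownB.Polar.Main
import Cfsg.Agent.Forms.UnitaryOrder
import Cfsg.Agent.Forms.OrthBridgeSimple
import Cfsg.Agent.Forms.InvolTwoOrth
import Cfsg.Agent.KnownB.Proj.Orth.Parity

/-!
# The classical models
-/

set_option autoImplicit false
set_option linter.unusedSectionVars false

namespace Cfsg.Agent.KnownB.Polar

open Cfsg Cfsg.Agent Cfsg.Agent.Forms Module

universe u

variable {F : Type u} [Field F] [Fintype F] (p : ℕ) [hp : Fact p.Prime] [CharP F p]

theorem steinberg_symplectic (m : ℕ) :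
    ∃ χ : Cfsg.PSp m F → ℂ, Cfsg.IsIrrCharacter (Cfsg.PSp m F) χ ∧
      ∀ P : Sylow p (Cfsg.PSp m F), χ 1 = Nat.card P ∧
        ∀ x : Cfsg.PSp m F, x ∈ P → x ≠ 1 → χ x = 0 := by
  have hrange : (spEquiv m F).toMonoidHom.range = ⊤ :=
    MonoidHom.range_eq_top.2 (spEquiv m F).surjective
  refine steinberg_quotient (F := F) (V := Fin m ⊕ Fin m → F) p isForm_symp
    (spEquiv m F).toMonoidHom (spEquiv m F).injective
    (by rw [hrange]; infer_instance) (by rw [hrange]; exact le_top) fun x _ hx hk => ?_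
  exact lef_pElement p isForm_symp (fun _ _ => rfl) x hx hk

theorem steinberg_unitary (n q : ℕ) (hF : Fintype.card F = q ^ 2) :
    ∃ χ : Cfsg.PSU n F q → ℂ, Cfsg.IsIrrCharacter (Cfsg.PSU n F q) χ ∧
      ∀ P : Sylow p (Cfsg.PSU n F q), χ 1 = Nat.card P ∧
        ∀ x : Cfsg.PSU n F q, x ∈ P → x ≠ 1 → χ x = 0 := by
  let e := guEquiv (n := n) hF
  let j : Cfsg.SU n F q →* _ := e.toMonoidHom.comp suToGU
  have hj : Function.Injective j := e.injective.comp (suToGU_injective hF)
  have hrange : j.range = (guDet (n := n) hF).ker.map e.toMonoidHom := by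
    rw [MonoidHom.range_comp, suToGU_range hF]
  have hcomm : commutator (Cfsg.GU n F q) ≤ (guDet (n := n) hF).ker :=
    Abelianization.commutator_subset_ker _
  refine steinberg_quotient (F := F) (V := Fin n → F) p (isForm_herm hF) j hj
    (by rw [hrange]; exact Subgroup.Normal.map (MonoidHom.normal_ker _) _ e.surjective) ?_
    fun x _ hx hk => lef_pElement p (isForm_herm hF) (fun _ h => h) x hx hk
  rw [hrange]
  refine le_trans (le_of_eq ?_) (Subgroup.map_mono hcomm)
  rw [commutator_def, commutator_def, Subgroup.map_commutator, Subgroup.map_top_of_surjective _ e.surjective]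

section Orthogonal

variable {ι : Type} [Fintype ι] [DecidableEq ι] (Q : QuadraticForm F (ι → F))

theorem steinberg_orthogonal (hQ : (QuadraticMap.polarBilin Q).Nondegenerate)
    (hrefl : (2 : F) = 0 → ∀ v, Q v ≠ 0 → Forms.reflection Q v ∉ commutator (orthGroup Q)) :
    ∃ χ : Cfsg.POmega F ⇑Q → ℂ, Cfsg.IsIrrCharacter (Cfsg.POmega F ⇑Q) χ ∧
      ∀ P : Sylow p (Cfsg.POmega F ⇑Q), χ 1 = Nat.card P ∧
        ∀ x : Cfsg.POmega F ⇑Q, x ∈ P → x ≠ 1 → χ x = 0 := by
  let j : Cfsg.Omega F ⇑Q →* orthGroup Q :=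
    (commutator (orthGroup Q)).subtype.comp (omegaEquiv Q).toMonoidHom
  have hj : Function.Injective j :=
    (commutator (orthGroup Q)).subtype_injective.comp (omegaEquiv Q).injective
  have hrange : j.range = commutator (orthGroup Q) := by
    rw [MonoidHom.range_comp, MonoidHom.range_eq_top.2 (omegaEquiv Q).surjective,
      ← MonoidHom.range_eq_map, Subgroup.range_subtype]
  refine steinberg_quotient (F := F) (V := ι → F) p (isForm_quadratic Q hQ) j hj
    (by rw [hrange]; infer_instance) hrange.ge fun x hx hx1 hk => ?_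
  rw [hrange] at hx
  by_cases h2 : (2 : F) = 0
  · haveI : CharP F 2 := CharTwo.of_one_ne_zero_of_two_eq_zero one_ne_zero h2
    obtain rfl : p = 2 := CharP.eq F (p := p) ‹_› (CharTwo.of_one_ne_zero_of_two_eq_zero one_ne_zero h2)
    exact lef_pElement_two hQ x hx1 hk fun v hv h => hrefl h2 v hv (h ▸ hx)
  · refine lef_pElement p (isForm_quadratic Q hQ) (fun z hz => ?_) x hx1 hk
    rw [QuadraticMap.polarBilin_apply_apply, QuadraticMap.polar_self, two_smul] at hz
    exact (mul_eq_zero.1 (show (2 : F) * Q z = 0 by rw [two_mul]; exact hz)).resolve_left h2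

end Orthogonal

theorem reflection_notMem_plus (m : ℕ) (v : Fin m ⊕ Fin m → F) (hv : qPlus m F v ≠ 0) :
    Forms.reflection (qPlus m F) v ∉ commutator (orthGroup (qPlus m F)) := by
  obtain ⟨E, hE⟩ := exists_generator_qPlus (F := F) m
  intro h
  let φ := (Proj.Orth.pty (isSplitSpace_qPlus m) hE).comp
    ((Proj.Orth.isoInc (qPlus m F)).comp (isometryEquiv (qPlus m F)).symm.toMonoidHom)
  have h1 : φ (Forms.reflection (qPlus m F) v) = 1 := Abelianization.commutator_subset_ker φ h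
  have h2 : φ (Forms.reflection (qPlus m F) v) = Multiplicative.ofAdd 1 :=
    Proj.Orth.pty_reflection (isSplitSpace_qPlus m) hE hv
  rw [h2] at h1
  exact absurd h1 (by decide)

theorem qMinus_plane_free (a b : F)
    (hab : ∀ z₁ z₂ : F, z₁ ^ 2 + a * z₁ * z₂ + b * z₂ ^ 2 = 0 → z₁ = 0 ∧ z₂ = 0)
    (W : Submodule F ((Fin 1 ⊕ Fin 1) ⊕ Fin 2 → F)) (hW : ∀ w ∈ W, qMinus 1 F a b w = 0) :
    finrank F W ≤ 1 := by
  by_contra hgt
  push Not at hgt
  have hex : ∀ i : (Fin 1 ⊕ Fin 1) ⊕ Fin 2, ∃ w ∈ W, w ≠ 0 ∧ w i = 0 := by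
    intro i
    let φ : W →ₗ[F] F := (LinearMap.proj i).comp W.subtype
    have h := LinearMap.finrank_range_add_finrank_ker φ
    have h1 : finrank F (LinearMap.range φ) ≤ 1 := (Submodule.finrank_le _).trans_eq (finrank_self F)
    obtain ⟨w, hw, hw0⟩ := Submodule.exists_mem_ne_zero_of_ne_bot (p := LinearMap.ker φ) fun hb => by
      rw [hb, finrank_bot] at h
      omega
    exact ⟨w, w.2, fun h => hw0 (Subtype.ext h), hw⟩
  obtain ⟨u, hu, hu0, hui⟩ := hex (.inl (.inl 0))
  obtain ⟨w, hw, hw0, hwi⟩ := hex (.inl (.inr 0))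
  have hzero : ∀ x ∈ W, x (.inl (.inl 0)) * x (.inl (.inr 0)) = 0 → x (.inr 0) = 0 ∧ x (.inr 1) = 0 := by
    intro x hx hprod
    have h := hW x hx
    rw [coe_qMinus] at h
    simp only [Cfsg.quadFormMinus, Fin.sum_univ_one, hprod, zero_add] at h
    exact hab _ _ h
  obtain ⟨u2, u3⟩ := hzero u hu (by rw [hui, zero_mul])
  obtain ⟨w2, w3⟩ := hzero w hw (by rw [hwi, mul_zero])
  have hu1 : u (.inl (.inr 0)) ≠ 0 := fun h => hu0 (funext fun i => by
    rcases i with (i | i) | i <;> fin_cases i <;> assumption)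
  have hw1 : w (.inl (.inl 0)) ≠ 0 := fun h => hw0 (funext fun i => by
    rcases i with (i | i) | i <;> fin_cases i <;> assumption)
  have h := hW (u + w) (add_mem hu hw)
  rw [coe_qMinus] at h
  simp [Cfsg.quadFormMinus, hui, hwi, u2, u3, w2, w3] at h
  tauto

theorem reflection_notMem_minus (m : ℕ) (a b : F)
    (hab : ∀ z₁ z₂ : F, z₁ ^ 2 + a * z₁ * z₂ + b * z₂ ^ 2 = 0 → z₁ = 0 ∧ z₂ = 0) (h2 : (2 : F) = 0)
    (v : (Fin m ⊕ Fin m) ⊕ Fin 2 → F) (hv : qMinus m F a b v ≠ 0) :
    Forms.reflection (qMinus m F a b) v ∉ commutator (orthGroup (qMinus m F a b)) := by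
  haveI : CharP F 2 := CharTwo.of_one_ne_zero_of_two_eq_zero one_ne_zero h2
  have hQ := qMinus_nondegenerate (m := m) a b (disc_ne_zero hab)
  have hdim : finrank F ((Fin m ⊕ Fin m) ⊕ Fin 2 → F) = 2 * m + 2 := by simp; omega
  refine reflection_notMem_commutator hQ (closure_reflectionSet_char_two hQ ?_) (by omega) hv
  by_cases h : m = 1
  · subst h
    exact Or.inr (Or.inr (qMinus_plane_free a b hab))
  · exact Or.inr (Or.inl (by omega))

end Cfsg.Agent.KnownB.Polar
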