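import Cfsg.Agent.KnownB.Polar.Space

/-!
# Frames, flag stabilisers and the reduction to the perpendicular space
-/

set_option autoImplicit false
set_option linter.unusedSectionVars false

namespace Cfsg.Agent.KnownB.Polar

open Cfsg.Agent.Forms Module
open Classical

universe u v

variable {F : Type u} {V : Type v} [Field F] [AddCommGroup V] [Module F V] [Finite V]
variable {σ : F →+* F} {B : V →ₛₗ[σ] V →ₗ[F] F} {N : V → F}

/-- A vector with prescribed products with independent vectors. -/
theorem exists_dual (hf : IsForm σ B N) {ι : Type*} [Fintype ι] {w : ι → V} (hw : LinearIndependent F w)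
    (c : ι → F) : ∃ x : V, ∀ i, B (w i) x = c i := by
  have h : ∀ i, ∃ d : V, (∀ h ∈ Submodule.span F (w '' (Set.univ \ {i})), B h d = 0) ∧ B (w i) d = 1 :=
    fun i => hf.exists_perp_pairing (hw.notMem_span_image (by simp)) 1
  choose d hd hd1 using h
  refine ⟨∑ i, c i • d i, fun i => ?_⟩
  rw [map_sum, Finset.sum_eq_single i (fun j _ hj => ?_) (fun h => absurd (Finset.mem_univ i) h)]
  · rw [map_smul, hd1, smul_eq_mul, mul_one]
  · rw [map_smul, hd j (w i) (Submodule.subset_span ⟨i, ⟨trivial, by simpa using hj.symm⟩, rfl⟩), smul_zero]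

/-- Independence of an isotropic family together with dual vectors of some of its members. -/
theorem li_pair {ι κ : Type*} [Fintype ι] [Fintype κ] {a : ι → V} {b : κ → V}
    (ha : LinearIndependent F a) (π : κ → ι) (haa : ∀ i i', B (a i) (a i') = 0)
    (hab : ∀ k k', B (a (π k)) (b k') = if k = k' then 1 else 0) :
    LinearIndependent F (Sum.elim a b) := by
  rw [Fintype.linearIndependent_iff]
  intro c hc
  rw [Fintype.sum_sum_type] at hc
  simp only [Sum.elim_inl, Sum.elim_inr] at hc
  have hd : ∀ k, c (Sum.inr k) = 0 := fun k => by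
    have := congrArg (B (a (π k))) hc
    simpa [map_add, map_sum, haa, hab] using this
  have hc' : ∑ i, c (Sum.inl i) • a i = 0 := by simpa [hd] using hc
  rintro (i | k)
  · exact Fintype.linearIndependent_iff.1 ha _ hc' i
  · exact hd k

/-- A hyperbolic frame of length `m`. -/
structure Frame (B : V →ₛₗ[σ] V →ₗ[F] F) (N : V → F) (m : ℕ) (e f : ℕ → V) : Prop where
  ne : ∀ a < m, N (e a) = 0
  nf : ∀ a < m, N (f a) = 0
  ee : ∀ a < m, ∀ b < m, B (e a) (e b) = 0
  ff : ∀ a < m, ∀ b < m, B (f a) (f b) = 0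
  ef : ∀ a < m, ∀ b < m, B (e a) (f b) = if a = b then 1 else 0

/-- The span of the first `s` vectors. -/
def pre (e : ℕ → V) (s : ℕ) : Submodule F V := Submodule.span F (Set.range fun a : Fin s => e a)

theorem mem_pre {e : ℕ → V} {s a : ℕ} (ha : a < s) : e a ∈ (pre e s : Submodule F V) :=
  Submodule.subset_span ⟨⟨a, ha⟩, rfl⟩

theorem pre_mono (e : ℕ → V) {s t : ℕ} (h : s ≤ t) : (pre e s : Submodule F V) ≤ pre e t :=
  Submodule.span_le.2 (by rintro _ ⟨a, rfl⟩; exact mem_pre (lt_of_lt_of_le a.2 h))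

theorem pre_zero (e : ℕ → V) : (pre e 0 : Submodule F V) = ⊥ := by
  rw [pre, Submodule.span_eq_bot]
  rintro _ ⟨a, rfl⟩
  exact a.elim0

section

variable {m : ℕ} {e f : ℕ → V} (hF : Frame B N m e f)
include hF

theorem li_e {s : ℕ} (hs : s ≤ m) : LinearIndependent F fun a : Fin s => e a := by
  rw [Fintype.linearIndependent_iff]
  intro c hc i
  have h0 : B (∑ a : Fin s, c a • e a) (f i) = 0 := by rw [hc]; simp
  simp only [map_sum, LinearMap.map_smulₛₗ, LinearMap.sum_apply, LinearMap.smul_apply, smul_eq_mul] at h0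
  rw [Finset.sum_eq_single i (fun j _ hj => by
    rw [hF.ef _ (lt_of_lt_of_le j.2 hs) _ (lt_of_lt_of_le i.2 hs), if_neg (fun h => hj (Fin.ext h)), mul_zero])
    (fun h => absurd (Finset.mem_univ i) h), hF.ef _ (lt_of_lt_of_le i.2 hs) _ (lt_of_lt_of_le i.2 hs),
    if_pos rfl, mul_one] at h0
  exact (map_eq_zero σ).1 h0

theorem finrank_pre {s : ℕ} (hs : s ≤ m) : finrank F (pre e s : Submodule F V) = s := by
  rw [pre, finrank_span_eq_card (li_e hF hs), Fintype.card_fin]

theorem ts_pre (hf : IsForm σ B N) {s : ℕ} (hs : s ≤ m) : TS B N (pre e s) :=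
  ts_span hf (by rintro _ ⟨a, rfl⟩; exact hF.ne _ (lt_of_lt_of_le a.2 hs))
    (by rintro _ ⟨a, rfl⟩ _ ⟨b, rfl⟩; exact hF.ee _ (lt_of_lt_of_le a.2 hs) _ (lt_of_lt_of_le b.2 hs))

theorem ts_pre_f (hf : IsForm σ B N) {s : ℕ} (hs : s ≤ m) : TS B N (pre f s) :=
  ts_span hf (by rintro _ ⟨a, rfl⟩; exact hF.nf _ (lt_of_lt_of_le a.2 hs))
    (by rintro _ ⟨a, rfl⟩ _ ⟨b, rfl⟩; exact hF.ff _ (lt_of_lt_of_le a.2 hs) _ (lt_of_lt_of_le b.2 hs))

theorem li_ef {j : ℕ} (hj : j ≤ m) : LinearIndependent F
    (Sum.elim (fun a : Fin m => e a) (fun b : Fin j => f b)) :=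
  li_pair (B := B) (li_e hF le_rfl) (fun b => Fin.castLE hj b) (fun a a' => hF.ee _ a.2 _ a'.2)
    (fun b b' => by
      rw [Fin.val_castLE, hF.ef _ (lt_of_lt_of_le b.2 hj) _ (lt_of_lt_of_le b'.2 hj)]
      simp only [Fin.ext_iff])

theorem li_f {s : ℕ} (hs : s ≤ m) : LinearIndependent F fun a : Fin s => f a :=
  (li_ef hF hs).comp Sum.inr Sum.inr_injective

theorem finrank_pre_f {s : ℕ} (hs : s ≤ m) : finrank F (pre f s : Submodule F V) = s := by
  rw [pre, finrank_span_eq_card (li_f hF hs), Fintype.card_fin]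

theorem bfe_ne (hf : IsForm σ B N) {a : ℕ} (ha : a < m) : B (f a) (e a) ≠ 0 := fun h => by
  have := hf.refl _ _ h
  rw [hF.ef a ha a ha, if_pos rfl] at this
  exact one_ne_zero this

theorem bfe (hf : IsForm σ B N) {a b : ℕ} (ha : a < m) (hb : b < m) (hab : a ≠ b) : B (f a) (e b) = 0 :=
  hf.refl _ _ (by rw [hF.ef b hb a ha, if_neg (Ne.symm hab)])

end

theorem exists_frame (hf : IsForm σ B N) {m : ℕ} (hr : HasRank B N m) : ∃ e f, Frame B N m e f := by
  obtain ⟨⟨W, hW, hWm⟩, -⟩ := hr
  let b : Basis (Fin m) F W := Module.finBasisOfFinrankEq F W hWm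
  let e : ℕ → V := fun a => if h : a < m then (b ⟨a, h⟩ : V) else 0
  have hmem : ∀ a, e a ∈ W := fun a => by
    simp only [e]; split
    · exact (b _).2
    · exact W.zero_mem
  have he : ∀ a : Fin m, e a = (b a : V) := fun a => by simp [e, a.2]
  have hli : LinearIndependent F fun a : Fin m => e a := by
    simp only [he]
    exact b.linearIndependent.map' W.subtype W.ker_subtype
  suffices h : ∀ j ≤ m, ∃ f : ℕ → V, (∀ a < j, N (f a) = 0) ∧ (∀ a < j, ∀ c < j, B (f a) (f c) = 0) ∧
      ∀ a < m, ∀ c < j, B (e a) (f c) = if a = c then 1 else 0 by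
    obtain ⟨f, h1, h2, h3⟩ := h m le_rfl
    exact ⟨e, f, fun a _ => (hW _ (hmem a)).1, h1, fun a _ c _ => (hW _ (hmem a)).2 _ (hmem c), h2, h3⟩
  intro j
  induction j with
  | zero => exact fun _ => ⟨fun _ => 0, by simp, by simp, by simp⟩
  | succ j ih =>
    intro hj
    obtain ⟨f, h1, h2, h3⟩ := ih (by omega)
    have hlp : LinearIndependent F (Sum.elim (fun a : Fin m => e a) (fun c : Fin j => f c)) :=
      li_pair (B := B) hli (fun c => Fin.castLE (by omega) c)
        (fun a a' => (hW _ (hmem a)).2 _ (hmem a')) fun c c' => by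
          rw [Fin.val_castLE, h3 _ (by omega) _ c'.2]
          simp only [Fin.ext_iff]
    obtain ⟨x, hx⟩ := exists_dual hf hlp
      (Sum.elim (fun a : Fin m => if (a : ℕ) = j then 1 else 0) (fun _ => 0))
    have hxe : ∀ a < m, B (e a) x = if a = j then 1 else 0 := fun a ha => hx (Sum.inl ⟨a, ha⟩)
    have hxf : ∀ c < j, B (f c) x = 0 := fun c hc => hx (Sum.inr ⟨c, hc⟩)
    have hjm : j < m := by omega
    obtain ⟨c₀, hc₀⟩ := hf.adjust 0 x (e j) (hW _ (hmem j)).1 ((hW _ (hmem j)).2 _ (hmem j))
      (fun h => by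
        have := hf.refl _ _ h
        rw [hxe j hjm, if_pos rfl] at this
        exact one_ne_zero this)
    rw [n_zero hf] at hc₀
    set y := x + c₀ • e j with hy
    have hye : ∀ a < m, B (e a) y = if a = j then 1 else 0 := fun a ha => by
      rw [hy, map_add, map_smul, (hW _ (hmem a)).2 _ (hmem j), smul_zero, add_zero, hxe a ha]
    have hyf : ∀ c < j, B (f c) y = 0 := fun c hc => by
      rw [hy, map_add, map_smul, hxf c hc, hf.refl _ _ (show B (e j) (f c) = 0 by
        rw [h3 j hjm c hc, if_neg (by omega)]), smul_zero, add_zero]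
    refine ⟨Function.update f j y, fun a ha => ?_, fun a ha c hc => ?_, fun a ha c hc => ?_⟩
    · rcases eq_or_ne a j with rfl | hne
      · rw [Function.update_self]; exact hc₀
      · rw [Function.update_of_ne hne]; exact h1 a (by omega)
    · rcases eq_or_ne a j with rfl | hne <;> rcases eq_or_ne c a with rfl | hne'
      · rw [Function.update_self]; exact b_self hf hc₀
      · rw [Function.update_self, Function.update_of_ne hne']
        exact hf.refl _ _ (hyf c (by omega))
      · rw [Function.update_of_ne hne]; exact h2 c (by omega) c (by omega)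
      · rw [Function.update_of_ne hne]
        rcases eq_or_ne c j with rfl | hne''
        · rw [Function.update_self]; exact hyf a (by omega)
        · rw [Function.update_of_ne hne'']; exact h2 a (by omega) c (by omega)
    · rcases eq_or_ne c j with rfl | hne
      · rw [Function.update_self]; exact hye a ha
      · rw [Function.update_of_ne hne]; exact h3 a ha c (by omega)

/-- The stabiliser of the standard subspaces of dimensions in `S`. -/
def stabS (B : V →ₛₗ[σ] V →ₗ[F] F) (N : V → F) (e : ℕ → V) (S : Finset ℕ) : Subgroup (isomGroup B N) where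
  carrier := {g | ∀ s ∈ S, mv g (pre e s) = pre e s}
  one_mem' := fun s _ => mv_one _
  mul_mem' := fun {a b} ha hb s hs => by rw [mv_mul, hb s hs, ha s hs]
  inv_mem' := fun {a} ha s hs => by conv_lhs => rw [← ha s hs]
                                    exact mv_inv_mv a _

theorem mem_stabS {e : ℕ → V} {S : Finset ℕ} {g : isomGroup B N} :
    g ∈ stabS B N e S ↔ ∀ s ∈ S, mv g (pre e s) = pre e s := Iff.rfl

/-- An independent singular family can be moved onto another with the same products. -/
theorem exists_move (hf : IsForm σ B N) {ι : Type*} {v w : ι → V} (hv : LinearIndependent F v)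
    (hw : LinearIndependent F w) (hN : ∀ i, N (v i) = 0) (hN' : ∀ i, N (w i) = 0)
    (hB : ∀ i j, B (w i) (w j) = B (v i) (v j)) :
    ∃ g : isomGroup B N, ∀ i, (g : V ≃ₗ[F] V) (v i) = w i :=
  hf.exists_isom_of_sameGram hv hw ⟨hB, fun i => by rw [hN, hN']⟩

section

variable {m : ℕ} {e f : ℕ → V} (hF : Frame B N m e f) (hf : IsForm σ B N)
include hF hf

/-- Totally singular subspaces of one dimension containing a standard one are conjugate. -/
theorem exists_extend {S : Finset ℕ} {t s : ℕ} (hS : ∀ a ∈ S, a ≤ t) (hts : t ≤ s) (hsm : s ≤ m)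
    {W : Submodule F V} (hW : TS B N W) (htW : pre e t ≤ W) (hWs : finrank F W = s) :
    ∃ g ∈ stabS B N e S, mv g (pre e s) = W := by
  obtain ⟨C, hC⟩ := Submodule.exists_isCompl ((pre e t : Submodule F V).comap W.subtype)
  have hEt : finrank F ↥((pre e t : Submodule F V).comap W.subtype) = t := by
    rw [(Submodule.comapSubtypeEquivOfLe htW).finrank_eq, finrank_pre hF (hts.trans hsm)]
  have hCd : finrank F C = s - t := by
    have := Submodule.finrank_add_eq_of_isCompl hC
    rw [hEt, hWs] at this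
    omega
  let c : Basis (Fin (s - t)) F C := Module.finBasisOfFinrankEq F C hCd
  let w : Fin t ⊕ Fin (s - t) → V := Sum.elim (fun a : Fin t => e a) (fun i => ((c i : W) : V))
  let x : Fin t ⊕ Fin (s - t) → V := Sum.elim (fun a : Fin t => e a) (fun i => e (t + i))
  let τ : Fin t ⊕ Fin (s - t) ≃ Fin s := finSumFinEquiv.trans (finCongr (by omega))
  have hxe : x = (fun a : Fin s => e a) ∘ τ := by
    funext i; rcases i with a | i <;> simp [x, τ]
  have hxli : LinearIndependent F x := hxe ▸ (li_e hF hsm).comp _ τ.injective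
  have hxr : Submodule.span F (Set.range x) = pre e s := by
    rw [hxe, Set.range_comp, τ.surjective.range_eq, Set.image_univ]; rfl
  have hwmem : ∀ i, w i ∈ W := fun i => by
    rcases i with a | i
    · exact htW (mem_pre a.2)
    · exact (c i : W).2
  have hwli : LinearIndependent F w := by
    refine LinearIndependent.sum_type (li_e hF (hts.trans hsm)) ?_ ?_
    · exact (c.linearIndependent.map' C.subtype C.ker_subtype).map' W.subtype W.ker_subtype
    · rw [Submodule.disjoint_def]
      intro y hy1 hy2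
      have hy2' : y ∈ C.map W.subtype := by
        refine Submodule.span_le.2 ?_ hy2
        rintro _ ⟨i, rfl⟩
        exact Submodule.mem_map_of_mem (c i).2
      obtain ⟨z, hz, rfl⟩ := hy2'
      have : z ∈ (pre e t : Submodule F V).comap W.subtype ⊓ C := ⟨hy1, hz⟩
      rw [hC.inf_eq_bot, Submodule.mem_bot] at this
      rw [this]; simp
  obtain ⟨g, hg⟩ := exists_move hf hxli hwli
    (fun i => by rcases i with a | i <;> exact hF.ne _ (by omega))
    (fun i => (hW _ (hwmem i)).1)
    (fun i j => by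
      rw [(hW _ (hwmem i)).2 _ (hwmem j)]
      rcases i with a | i <;> rcases j with b | j <;> exact (hF.ee _ (by omega) _ (by omega)).symm)
  refine ⟨g, fun a ha => mv_eq_of_le g ?_, ?_⟩
  · rw [mv, pre, Submodule.map_span_le]
    rintro _ ⟨i, rfl⟩
    have := hg (Sum.inl ⟨i, lt_of_lt_of_le i.2 (hS a ha)⟩)
    exact (show (g : V ≃ₗ[F] V) (e i) = e i from this) ▸ mem_pre i.2
  · refine Submodule.eq_of_le_of_finrank_eq ?_ (by rw [finrank_mv, finrank_pre hF hsm, hWs])
    rw [mv, ← hxr, Submodule.map_span_le]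
    rintro _ ⟨i, rfl⟩
    show (g : V ≃ₗ[F] V) (x i) ∈ W
    rw [hg]
    exact hwmem i

/-- The opposite subspaces of a standard one have dimension at most its own. -/
theorem opp_le {k : ℕ} {y : Submodule F V} (hk : y ⊓ perp B (pre e k) = ⊥) :
    finrank F y ≤ k := by
  let Ψ : y →ₗ[F] (Fin k → F) := LinearMap.pi fun a => (B (e a)).comp y.subtype
  have hΨ : Function.Injective Ψ := by
    rw [injective_iff_map_eq_zero]
    intro x hx
    refine Subtype.ext ?_
    have h1 : (x : V) ∈ y ⊓ perp B (pre e k) := ⟨x.2, by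
      rw [pre, SetLike.mem_coe, mem_perp_span]
      rintro _ ⟨a, rfl⟩
      exact congrFun hx a⟩
    rwa [hk, Submodule.mem_bot] at h1
  have := LinearMap.finrank_le_finrank_of_injective hΨ
  simpa using this

/-- Opposite subspaces of one dimension are conjugate under the stabiliser of the flag. -/
theorem exists_opp {S : Finset ℕ} {k j : ℕ} (hS : ∀ a ∈ S, k ≤ a ∧ a ≤ m) (hkm : k ≤ m) (hjk : j ≤ k)
    {y : Submodule F V} (hy : TS B N y) (hyk : y ⊓ perp B (pre e k) = ⊥) (hyj : finrank F y = j) :
    ∃ g ∈ stabS B N e S, mv g (pre f j) = y := by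
  let b : Basis (Fin j) F y := Module.finBasisOfFinrankEq F y hyj
  let Ψ : y →ₗ[F] (Fin k → F) := LinearMap.pi fun a => (B (e a)).comp y.subtype
  have hΨ : LinearMap.ker Ψ = ⊥ := by
    rw [LinearMap.ker_eq_bot']
    intro x hx
    refine Subtype.ext ?_
    have h1 : (x : V) ∈ y ⊓ perp B (pre e k) := ⟨x.2, by
      rw [pre, SetLike.mem_coe, mem_perp_span]
      rintro _ ⟨a, rfl⟩
      exact congrFun hx a⟩
    rwa [hyk, Submodule.mem_bot] at h1
  obtain ⟨L, hL⟩ := Ψ.exists_leftInverse_of_injective hΨ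
  -- dual vectors in the standard subspace
  let d : Fin j → V := fun c => ∑ a : Fin k, σ (b.repr (L (Pi.single a 1)) c) • e a
  have hd_mem : ∀ c, d c ∈ (pre e k : Submodule F V) := fun c =>
    Submodule.sum_mem _ fun a _ => Submodule.smul_mem _ _ (mem_pre a.2)
  have hd : ∀ c c', B (d c) (b c') = if c = c' then 1 else 0 := fun c c' => by
    have h1 : ∀ u : Fin k → F, b.repr (L u) c = ∑ a, u a * b.repr (L (Pi.single a 1)) c := fun u => by
      conv_lhs => rw [pi_eq_sum_univ' u]
      simp [map_sum, Finsupp.finsetSum_apply]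
    have h2 := h1 (Ψ (b c'))
    rw [show L (Ψ (b c')) = b c' from LinearMap.congr_fun hL _, b.repr_self, Finsupp.single_apply] at h2
    simp only [d, map_sum, LinearMap.sum_apply, LinearMap.map_smulₛₗ, LinearMap.smul_apply, smul_eq_mul,
      hf.sigma_sigma]
    rw [show (if c = c' then (1 : F) else 0) = if c' = c then 1 else 0 from if_congr eq_comm rfl rfl, h2]
    exact Finset.sum_congr rfl fun a _ => mul_comm _ _
  let K : Submodule F V := pre e k ⊓ perp B y
  have hKb : ∀ x, x ∈ perp B y ↔ ∀ c, B (b c : V) x = 0 := fun x => by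
    refine ⟨fun h c => h _ (b c).2, fun h a ha => ?_⟩
    have h2 : (⟨a, ha⟩ : y) ∈ Submodule.span F (Set.range b) := b.span_eq ▸ Submodule.mem_top
    generalize hz : (⟨a, ha⟩ : y) = z at h2
    have : ∀ z ∈ Submodule.span F (Set.range b), B (z : V) x = 0 := by
      intro z hz
      induction hz using Submodule.span_induction with
      | mem z hz => obtain ⟨c, rfl⟩ := hz; exact h c
      | zero => simp
      | add p q _ _ hp hq => rw [Submodule.coe_add, map_add, LinearMap.add_apply, hp, hq, add_zero]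
      | smul t p _ hp => rw [Submodule.coe_smul, LinearMap.map_smulₛₗ, LinearMap.smul_apply, hp, smul_zero]
    have := this z h2
    rwa [← hz] at this
  -- decomposition along the dual vectors
  let Q : V → V := fun x => x - ∑ c : Fin j, σ (B x (b c)) • d c
  have hQ : ∀ x, ∀ c, B (Q x) (b c) = 0 := fun x c => by
    simp only [Q, map_sub, map_sum, LinearMap.sub_apply, LinearMap.sum_apply, LinearMap.map_smulₛₗ,
      LinearMap.smul_apply, smul_eq_mul, hf.sigma_sigma, hd]
    simp
  have hsplit : (pre e k : Submodule F V) ≤ Submodule.span F (Set.range d) ⊔ K := fun x hx => by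
    have hxQ : x = (∑ c : Fin j, σ (B x (b c)) • d c) + Q x := by simp [Q]
    rw [hxQ]
    refine Submodule.add_mem_sup (Submodule.sum_mem _ fun c _ => Submodule.smul_mem _ _
      (Submodule.subset_span ⟨c, rfl⟩)) ⟨?_, ?_⟩
    · exact sub_mem hx (Submodule.sum_mem _ fun c _ => Submodule.smul_mem _ _ (hd_mem c))
    · rw [SetLike.mem_coe, hKb]
      exact fun c => hf.refl _ _ (hQ x c)
  have hlid : LinearIndependent F d := by
    rw [Fintype.linearIndependent_iff]
    intro c hc i
    have := LinearMap.congr_fun (congrArg B hc) (b i : V)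
    simpa [map_sum, LinearMap.map_smulₛₗ, hd] using this
  have hKd : finrank F K = k - j := by
    have h1 : finrank F (Submodule.span F (Set.range d)) = j := by
      rw [finrank_span_eq_card hlid, Fintype.card_fin]
    have hle : Submodule.span F (Set.range d) ⊔ K = pre e k :=
      le_antisymm (sup_le (Submodule.span_le.2 (by rintro _ ⟨c, rfl⟩; exact hd_mem c)) inf_le_left) hsplit
    have hdisj : Submodule.span F (Set.range d) ⊓ K = ⊥ := by
      rw [Submodule.eq_bot_iff]
      rintro x ⟨hx1, hx2⟩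
      obtain ⟨c, rfl⟩ := (Submodule.mem_span_range_iff_exists_fun F).1 hx1
      refine Finset.sum_eq_zero fun i _ => ?_
      have h0 := hf.refl _ _ ((hKb _).1 hx2.2 i)
      simp only [map_sum, LinearMap.sum_apply, LinearMap.map_smulₛₗ, LinearMap.smul_apply, hd, smul_eq_mul] at h0
      rw [Finset.sum_eq_single i (fun l _ hl => by rw [if_neg hl, mul_zero])
        (fun h => absurd (Finset.mem_univ i) h), if_pos rfl, mul_one, map_eq_zero] at h0
      rw [h0, zero_smul]
    have := Submodule.finrank_sup_add_finrank_inf_eq (Submodule.span F (Set.range d)) K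
    rw [hle, hdisj, finrank_bot, finrank_pre hF hkm, h1] at this
    omega
  let bK : Basis (Fin (k - j)) F K := Module.finBasisOfFinrankEq F K hKd
  let w : Fin m → V := fun a => if h : (a : ℕ) < j then d ⟨a, h⟩
    else if h' : (a : ℕ) < k then (bK ⟨a - j, by omega⟩ : V) else Q (e a)
  have hw1 : ∀ (a : ℕ) (ha : a < j), w ⟨a, by omega⟩ = d ⟨a, ha⟩ := fun a ha => dif_pos ha
  have hw2 : ∀ i : Fin (k - j), w ⟨j + i, by omega⟩ = (bK i : V) := fun i => by
    simp only [w]
    rw [dif_neg (by omega), dif_pos (by omega)]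
    congr 2; ext; simp
  have hwk : ∀ a : Fin m, (a : ℕ) < k → w a ∈ (pre e k : Submodule F V) := fun a ha => by
    simp only [w]
    split_ifs with h
    · exact hd_mem _
    · exact (bK _).2.1
  have hpre_w : ∀ s, k ≤ s → s ≤ m → (pre e s : Submodule F V) = Submodule.span F (w '' {a : Fin m | (a : ℕ) < s}) := by
    intro s hks hsm
    have hk' : (pre e k : Submodule F V) ≤ Submodule.span F (w '' {a : Fin m | (a : ℕ) < s}) := by
      refine hsplit.trans (sup_le (Submodule.span_le.2 ?_) ?_)
      · rintro _ ⟨c, rfl⟩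
        exact Submodule.subset_span ⟨⟨c, by omega⟩, by simp; omega, hw1 c c.2⟩
      · intro x hx
        have h2 : x ∈ Submodule.span F (Set.range fun i => (bK i : V)) := by
          have := Submodule.mem_map_of_mem (f := K.subtype) (bK.span_eq ▸ Submodule.mem_top : (⟨x, hx⟩ : K) ∈ Submodule.span F (Set.range bK))
          rwa [Submodule.map_span, ← Set.range_comp] at this
        refine Submodule.span_le.2 ?_ h2
        rintro _ ⟨i, rfl⟩
        exact Submodule.subset_span ⟨⟨j + i, by omega⟩, by simp; omega, hw2 i⟩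
    refine le_antisymm ?_ (Submodule.span_le.2 ?_)
    · refine Submodule.span_le.2 ?_
      rintro _ ⟨a, rfl⟩
      by_cases ha : (a : ℕ) < k
      · exact hk' (mem_pre ha)
      · have hQw : w ⟨a, by omega⟩ = Q (e a) := by
          simp only [w]; rw [dif_neg (by omega), dif_neg ha]
        have hea : e a = (∑ c : Fin j, σ (B (e a) (b c)) • d c) + w ⟨a, by omega⟩ := by
          rw [hQw]; simp [Q]
        show e a ∈ Submodule.span F (w '' {a : Fin m | (a : ℕ) < s})
        rw [hea]
        exact add_mem (hk' (Submodule.sum_mem _ fun c _ => Submodule.smul_mem _ _ (hd_mem c)))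
          (Submodule.subset_span ⟨⟨a, by omega⟩, by simp, rfl⟩)
    · rintro _ ⟨a, ha, rfl⟩
      by_cases h : (a : ℕ) < k
      · exact pre_mono e hks (hwk a h)
      · simp only [w]
        rw [dif_neg (by omega), dif_neg h]
        exact sub_mem (mem_pre ha) (Submodule.sum_mem _ fun c _ => Submodule.smul_mem _ _ (pre_mono e hks (hd_mem c)))
  have hwm : ∀ a, w a ∈ (pre e m : Submodule F V) := fun a => by
    rw [hpre_w m hkm le_rfl]; exact Submodule.subset_span ⟨a, a.2, rfl⟩
  have hwli : LinearIndependent F w := by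
    rw [linearIndependent_iff_card_eq_finrank_span, Fintype.card_fin]
    have h := finrank_pre hF (le_refl m)
    rw [hpre_w m hkm le_rfl, show {a : Fin m | (a : ℕ) < m} = Set.univ from Set.eq_univ_of_forall fun a => a.2,
      Set.image_univ] at h
    rw [Set.finrank]; exact h.symm
  have hwb : ∀ (a : Fin m) (c : Fin j), B (w a) (b c) = if (a : ℕ) = c then 1 else 0 := fun a c => by
    simp only [w]
    split_ifs with h h' h''
    · rw [hd]; exact if_pos (Fin.ext h')
    · rw [hd]; exact if_neg (fun e => h' (congrArg Fin.val e))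
    · omega
    · exact hf.refl _ _ ((hKb _).1 (bK _).2.2 c)
    · omega
    · exact hQ _ c
  have hTm := ts_pre hF hf (le_refl m)
  let v : Fin m ⊕ Fin j → V := Sum.elim (fun a : Fin m => e a) (fun c : Fin j => f c)
  let w' : Fin m ⊕ Fin j → V := Sum.elim w (fun c => (b c : V))
  have hw'li : LinearIndependent F w' := li_pair (B := B) hwli (fun c => Fin.castLE (hjk.trans hkm) c)
    (fun a a' => (hTm _ (hwm a)).2 _ (hwm a')) (fun c c' => by
      rw [hwb, Fin.val_castLE]; simp only [Fin.ext_iff])
  obtain ⟨g, hg⟩ := exists_move hf (li_ef hF (hjk.trans hkm)) hw'li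
    (fun i => by rcases i with a | c <;> [exact hF.ne _ a.2; exact hF.nf _ (by omega)])
    (fun i => by rcases i with a | c <;> [exact (hTm _ (hwm a)).1; exact (hy _ (b c).2).1])
    (by
      have hefw : ∀ (a : Fin m) (c : Fin j), B (w a) (b c : V) = B (e a) (f c) := fun a c => by
        rw [hwb, hF.ef _ a.2 _ (by omega)]
      rintro (a | c) (a' | c')
      · exact ((hTm _ (hwm a)).2 _ (hwm a')).trans (hF.ee _ a.2 _ a'.2).symm
      · exact hefw a c'
      · exact hf.swap_eq _ _ _ _ (hefw a' c)
      · exact ((hy _ (b c).2).2 _ (b c').2).trans (hF.ff _ (by omega) _ (by omega)).symm)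
  refine ⟨g, fun s hs => mv_eq_of_le g ?_, ?_⟩
  · rw [hpre_w s (hS s hs).1 (hS s hs).2]
    conv_lhs => rw [← hpre_w s (hS s hs).1 (hS s hs).2, mv, pre, Submodule.map_span]
    refine Submodule.span_mono ?_
    rintro _ ⟨_, ⟨a, rfl⟩, rfl⟩
    exact ⟨⟨a, lt_of_lt_of_le a.2 (hS s hs).2⟩, a.2, (hg (Sum.inl ⟨a, lt_of_lt_of_le a.2 (hS s hs).2⟩)).symm⟩
  · refine Submodule.eq_of_le_of_finrank_eq ?_ (by rw [finrank_mv, finrank_pre_f hF (hjk.trans hkm), hyj])
    rw [mv, pre, Submodule.map_span_le]
    rintro _ ⟨c, rfl⟩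
    exact (hg (Sum.inr c)).symm ▸ (b c).2

end

end Cfsg.Agent.KnownB.Polar
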