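import Cfsg.Agent.KnownB.Polar.Space
import Cfsg.Agent.KnownB.Polar.Frame
import Mathlib.GroupTheory.Commutator.Basic

/-!
# Elements centralizing a normal subgroup containing the commutators fix all singular subspaces
-/

set_option autoImplicit false
set_option linter.unusedSectionVars false

namespace Cfsg.Agent.KnownB.Polar

open Cfsg.Agent.Forms Module
open Classical
open scoped commutatorElement

universe u v

variable {F : Type u} {V : Type v} [Field F] [AddCommGroup V] [Module F V] [Finite V]
variable {σ : F →+* F} {B : V →ₛₗ[σ] V →ₗ[F] F} {N : V → F}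

/-- Shorthand for the action on vectors. -/
local notation:max g " ⋅ " x:max => ((g : isomGroup B N) : V ≃ₗ[F] V) x

section

variable {m : ℕ} {e f : ℕ → V} (hF : Frame B N m e f) (hf : IsForm σ B N) (hr : HasRank B N m)
  {K : Subgroup (isomGroup B N)}
include hF hf hr

theorem li_two_of_frame (hm : 2 ≤ m) : LinearIndependent F ![e 0, e 1] := by
  have : (![e 0, e 1] : Fin 2 → V) = (fun a : Fin m => e a) ∘ Fin.castLE hm := by
    funext i; fin_cases i <;> rfl
  rw [this]
  exact (li_e hF le_rfl).comp _ (Fin.castLE_injective hm)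

theorem apply_singular_of_two_le (hK : commutator (isomGroup B N) ≤ K) (hm : 2 ≤ m)
    {z : isomGroup B N} (hz : ∀ c ∈ K, c * z = z * c) {v : V} (hv : N v = 0) (hv0 : v ≠ 0) :
    z ⋅ v ∈ Submodule.span F {v} := by
  by_contra hnot
  set y := z ⋅ v with hy
  have hyN : N y = 0 := (z.2.2 v).trans hv
  have hvy : LinearIndependent F ![v, y] := by
    rw [LinearIndependent.pair_iff' hv0]
    exact fun a h => hnot (Submodule.mem_span_singleton.2 ⟨a, h⟩)
  -- the commutator fixing `v` and not `y`
  have main : ∀ (k : isomGroup B N) (w : V) (a : F) (u h : isomGroup B N), a ≠ 0 →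
      k ⋅ (e 0) = v → k ⋅ (a • w) = y → u ⋅ (e 0) = e 0 → h ⋅ (e 0) = e 0 →
      h ⋅ (u ⋅ (h⁻¹ ⋅ w)) ≠ u ⋅ w → False := by
    intro k w a u h ha hk hkw hu hh hne
    have hc : k * ⁅u⁻¹, h⁆ * k⁻¹ * 1 ∈ commutator (isomGroup B N) := by
      rw [mul_one]
      exact (inferInstance : (commutator (isomGroup B N)).Normal).conj_mem _
        (Subgroup.commutator_mem_commutator (Subgroup.mem_top _) (Subgroup.mem_top _)) k
    rw [mul_one] at hc
    have hcomm := congrArg (fun g : isomGroup B N => g ⋅ v) (hz _ (hK hc))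
    have hsymm : ∀ (g : isomGroup B N) {p q : V}, g ⋅ p = q → g⁻¹ ⋅ q = p := fun g p q hpq => by
      rw [← hpq]; exact LinearEquiv.symm_apply_apply (g : V ≃ₗ[F] V) p
    have hcv : (k * ⁅u⁻¹, h⁆ * k⁻¹) ⋅ v = v := by
      show k ⋅ (u⁻¹ ⋅ (h ⋅ ((u⁻¹)⁻¹ ⋅ (h⁻¹ ⋅ (k⁻¹ ⋅ v))))) = v
      rw [hsymm k hk, hsymm h hh, inv_inv, hu, hh, hsymm u hu, hk]
    change (k * ⁅u⁻¹, h⁆ * k⁻¹) ⋅ y = z ⋅ ((k * ⁅u⁻¹, h⁆ * k⁻¹) ⋅ v) at hcomm
    rw [hcv, ← hy] at hcomm
    change k ⋅ (u⁻¹ ⋅ (h ⋅ ((u⁻¹)⁻¹ ⋅ (h⁻¹ ⋅ (k⁻¹ ⋅ y))))) = y at hcomm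
    rw [hsymm k hkw, inv_inv] at hcomm
    have h1 := (k : V ≃ₗ[F] V).injective (hcomm.trans hkw.symm)
    simp only [map_smul] at h1
    have h2 := congrArg (fun x => u ⋅ x) (smul_right_injective V ha h1)
    refine hne (Eq.trans ?_ h2)
    exact (LinearEquiv.apply_symm_apply (u : V ≃ₗ[F] V) _).symm
  have hne01 : e 1 ≠ 0 := fun h => (li_two_of_frame hF hf hr hm).ne_zero 1 h
  have hee : ∀ a < 2, ∀ b < 2, B (e a) (e b) = 0 := fun a ha b hb => hF.ee a (by omega) b (by omega)
  have hef : ∀ a < 2, ∀ b < 2, B (e a) (f b) = if a = b then 1 else 0 :=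
    fun a ha b hb => hF.ef a (by omega) b (by omega)
  have hne : ∀ a < 2, N (e a) = 0 := fun a ha => hF.ne a (by omega)
  have hnf : ∀ a < 2, N (f a) = 0 := fun a ha => hF.nf a (by omega)
  have hff : ∀ a < 2, ∀ b < 2, B (f a) (f b) = 0 := fun a ha b hb => hF.ff a (by omega) b (by omega)
  have hfe : ∀ a < 2, ∀ b < 2, a ≠ b → B (f a) (e b) = 0 :=
    fun a ha b hb hab => bfe hF hf (by omega) (by omega) hab
  have li3 : ∀ a b c : Fin m ⊕ Fin 2, a ≠ b → a ≠ c → b ≠ c → LinearIndependent F
      ![Sum.elim (fun a : Fin m => e a) (fun b : Fin 2 => f b) a,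
        Sum.elim (fun a : Fin m => e a) (fun b : Fin 2 => f b) b,
        Sum.elim (fun a : Fin m => e a) (fun b : Fin 2 => f b) c] := by
    intro a b c hab hac hbc
    have : ∀ g : Fin m ⊕ Fin 2 → V, ![g a, g b, g c] = g ∘ ![a, b, c] := fun g => by
      funext i; fin_cases i <;> rfl
    rw [this]
    refine (li_ef hF hm).comp _ fun i j h => ?_
    fin_cases i <;> fin_cases j <;> simp_all
  let ie : Fin 2 → Fin m ⊕ Fin 2 := fun a => Sum.inl (Fin.castLE hm a)
  let i_f : Fin 2 → Fin m ⊕ Fin 2 := fun b => Sum.inr b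
  by_cases hb : B v y = 0
  · -- `z v` perpendicular to `v`
    obtain ⟨k, hk⟩ := exists_move hf (li_two_of_frame hF hf hr hm) hvy
      (fun i => by fin_cases i <;> exact hne _ (by norm_num))
      (fun i => by fin_cases i <;> assumption) (fun i j => by
        have e00 := hee 0 two_pos 0 two_pos
        have e01 := hee 0 two_pos 1 one_lt_two
        have e10 := hee 1 one_lt_two 0 two_pos
        have e11 := hee 1 one_lt_two 1 one_lt_two
        have hvv := b_self hf hv
        have hyy := b_self hf hyN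
        have hyv := hf.refl _ _ hb
        fin_cases i <;> fin_cases j <;> simp_all)
    -- `u : e 1 ↦ e 1 + e 0`, fixing `e 0` and `f 1`
    obtain ⟨u, hu⟩ := exists_move hf
      (li3 (ie 0) (ie 1) (i_f 1) (by simp [ie, Fin.ext_iff]) (by simp [ie, i_f]) (by simp [ie, i_f]))
      (w := ![e 0, e 1 + e 0, f 1])
      (by
        rw [Fintype.linearIndependent_iff]
        intro c hc i
        rw [Fin.sum_univ_three] at hc
        simp only [Matrix.cons_val_zero, Matrix.cons_val_one, Matrix.cons_val] at hc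
        have h1 := congrArg (B (f 1)) hc
        have h2 := congrArg (B (e 1)) hc
        have h3 := congrArg (B (f 0)) hc
        simp [hff 1 one_lt_two 1 one_lt_two, hfe 1 one_lt_two 0 two_pos (by norm_num),
          bfe_ne hF hf (show 1 < m by omega)] at h1
        simp [hee 1 one_lt_two 1 one_lt_two, hee 1 one_lt_two 0 two_pos, hef 1 one_lt_two 1 one_lt_two] at h2
        simp [hff 0 two_pos 1 one_lt_two, hfe 0 two_pos 1 one_lt_two (by norm_num), h1,
          bfe_ne hF hf (show 0 < m by omega)] at h3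
        fin_cases i <;> assumption)
      (fun i => by fin_cases i <;> [exact hne 0 two_pos; exact hne 1 one_lt_two; exact hnf 1 one_lt_two])
      (fun i => by
        fin_cases i
        · exact hne 0 two_pos
        · show N (e 1 + e 0) = 0
          rw [n_add hf (hne 0 two_pos) (hee 1 one_lt_two 0 two_pos), hne 1 one_lt_two]
        · exact hnf 1 one_lt_two)
      (fun i j => by
        have e00 := hee 0 two_pos 0 two_pos
        have e01 := hee 0 two_pos 1 one_lt_two
        have e10 := hee 1 one_lt_two 0 two_pos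
        have e11 := hee 1 one_lt_two 1 one_lt_two
        have f01 := hef 0 two_pos 1 one_lt_two
        have g10 := hfe 1 one_lt_two 0 two_pos (by norm_num)
        fin_cases i <;> fin_cases j <;> simp_all [ie, i_f])
    obtain ⟨h, hh⟩ := exists_move hf (v := ![e 0, f 1]) (w := ![e 0, e 1])
      (LinearIndependent.pair_iff' (fun h => by simpa [h] using hef 0 two_pos 0 two_pos) |>.2 fun a h => by
        have := congrArg (B (e 1)) h
        simp [hee 1 one_lt_two 0 two_pos, hef 1 one_lt_two 1 one_lt_two] at this)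
      (li_two_of_frame hF hf hr hm)
      (fun i => by fin_cases i <;> [exact hne 0 two_pos; exact hnf 1 one_lt_two])
      (fun i => by fin_cases i <;> exact hne _ (by norm_num))
      (fun i j => by
        have e00 := hee 0 two_pos 0 two_pos
        have e01 := hee 0 two_pos 1 one_lt_two
        have e10 := hee 1 one_lt_two 0 two_pos
        have e11 := hee 1 one_lt_two 1 one_lt_two
        have f01 := hef 0 two_pos 1 one_lt_two
        have g10 := hfe 1 one_lt_two 0 two_pos (by norm_num)
        have f11 := hff 1 one_lt_two 1 one_lt_two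
        fin_cases i <;> fin_cases j <;> simp_all)
    refine main k (e 1) 1 u h one_ne_zero (hk 0) (by rw [one_smul]; exact hk 1) (hu 0) (hh 0) ?_
    have hinv : h⁻¹ ⋅ (e 1) = f 1 := by
      rw [← show h ⋅ (f 1) = e 1 from hh 1]; exact LinearEquiv.symm_apply_apply (h : V ≃ₗ[F] V) _
    rw [hinv, show u ⋅ (f 1) = f 1 from hu 2, show h ⋅ (f 1) = e 1 from hh 1,
      show u ⋅ (e 1) = e 1 + e 0 from hu 1]
    intro h'
    exact (li_two_of_frame hF hf hr hm).ne_zero 0 (add_eq_left.1 h'.symm)
  · -- `z v` not perpendicular to `v`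
    have h1 : B v ((B v y)⁻¹ • y) = B (e 0) (f 0) := by
      rw [map_smul, smul_eq_mul, inv_mul_cancel₀ hb, hef 0 two_pos 0 two_pos, if_pos rfl]
    obtain ⟨k, hk⟩ := exists_move hf (v := ![e 0, f 0]) (w := ![v, (B v y)⁻¹ • y])
      (LinearIndependent.pair_iff' (fun h => by simpa [h] using hef 0 two_pos 0 two_pos) |>.2 fun a h => by
        have := congrArg (B (e 0)) h
        simp [hee 0 two_pos 0 two_pos, hef 0 two_pos 0 two_pos] at this)
      ((LinearIndependent.pair_iff' hv0).2 fun a h => hnot (Submodule.mem_span_singleton.2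
        ⟨B v y * a, by rw [mul_smul, h, smul_inv_smul₀ hb]⟩))
      (fun i => by fin_cases i <;> [exact hne 0 two_pos; exact hnf 0 two_pos])
      (fun i => by fin_cases i <;> [exact hv; exact n_smul hf hyN _])
      (fun i j => by
        fin_cases i <;> fin_cases j
        · exact (b_self hf hv).trans (hee 0 two_pos 0 two_pos).symm
        · exact h1
        · exact hf.swap_eq _ _ _ _ h1
        · exact (b_self hf (n_smul hf hyN _)).trans (hff 0 two_pos 0 two_pos).symm)
    have hli' : LinearIndependent F ![e 0, f 0 + e 1] := by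
      refine (LinearIndependent.pair_iff' (fun h => by simpa [h] using hef 0 two_pos 0 two_pos)).2 fun a h => ?_
      have := congrArg (B (e 0)) h
      simp [hee 0 two_pos 0 two_pos, hef 0 two_pos 0 two_pos, hee 0 two_pos 1 one_lt_two] at this
    obtain ⟨u, hu⟩ := exists_move hf (v := ![e 0, f 0]) (w := ![e 0, f 0 + e 1])
      (LinearIndependent.pair_iff' (fun h => by simpa [h] using hef 0 two_pos 0 two_pos) |>.2 fun a h => by
        have := congrArg (B (e 0)) h
        simp [hee 0 two_pos 0 two_pos, hef 0 two_pos 0 two_pos] at this)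
      hli'
      (fun i => by fin_cases i <;> [exact hne 0 two_pos; exact hnf 0 two_pos])
      (fun i => by
        fin_cases i
        · exact hne 0 two_pos
        · show N (f 0 + e 1) = 0
          rw [n_add hf (hne 1 one_lt_two) (hfe 0 two_pos 1 one_lt_two (by norm_num)), hnf 0 two_pos])
      (fun i j => by
        have e00 := hee 0 two_pos 0 two_pos
        have e01 := hee 0 two_pos 1 one_lt_two
        have e10 := hee 1 one_lt_two 0 two_pos
        have e11 := hee 1 one_lt_two 1 one_lt_two
        have f00 := hff 0 two_pos 0 two_pos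
        have g01 := hfe 0 two_pos 1 one_lt_two (by norm_num)
        have f10 := hef 1 one_lt_two 0 two_pos
        fin_cases i <;> fin_cases j <;> simp_all)
    obtain ⟨h, hh⟩ := exists_move hf
      (li3 (ie 0) (i_f 0) (ie 1) (by simp [ie, i_f]) (by simp [ie, Fin.ext_iff]) (by simp [ie, i_f]))
      (li3 (ie 0) (i_f 0) (i_f 1) (by simp [ie, i_f]) (by simp [ie, i_f]) (by simp [i_f]))
      (fun i => by fin_cases i <;> [exact hne 0 two_pos; exact hnf 0 two_pos; exact hne 1 one_lt_two])
      (fun i => by fin_cases i <;> [exact hne 0 two_pos; exact hnf 0 two_pos; exact hnf 1 one_lt_two])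
      (fun i j => by
        have e01 := hee 0 two_pos 1 one_lt_two
        have e10 := hee 1 one_lt_two 0 two_pos
        have e11 := hee 1 one_lt_two 1 one_lt_two
        have f01 := hff 0 two_pos 1 one_lt_two
        have f10 := hff 1 one_lt_two 0 two_pos
        have f11 := hff 1 one_lt_two 1 one_lt_two
        have p01 := hef 0 two_pos 1 one_lt_two
        have p10 := hef 1 one_lt_two 0 two_pos
        have g01 := hfe 0 two_pos 1 one_lt_two (by norm_num)
        have g10 := hfe 1 one_lt_two 0 two_pos (by norm_num)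
        fin_cases i <;> fin_cases j <;> simp_all [ie, i_f])
    refine main k (f 0) (B v y) u h hb (hk 0) ?_ (hu 0) (hh 0) ?_
    · rw [map_smul, show k ⋅ (f 0) = (B v y)⁻¹ • y from hk 1, smul_inv_smul₀ hb]
    · have hinv : h⁻¹ ⋅ (f 0) = f 0 := by
        conv_lhs => rw [← show h ⋅ (f 0) = f 0 from hh 1]
        exact LinearEquiv.symm_apply_apply (h : V ≃ₗ[F] V) _
      rw [hinv, show u ⋅ (f 0) = f 0 + e 1 from hu 1, map_add, show h ⋅ (f 0) = f 0 from hh 1,
        show h ⋅ (e 1) = f 1 from hh 2]
      intro h'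
      have := congrArg (B (e 1)) (add_left_cancel h')
      simp [hef 1 one_lt_two 1 one_lt_two, hee 1 one_lt_two 1 one_lt_two] at this

theorem apply_singular_of_rank_one (hn : K.Normal) (hm : m = 1) {x : isomGroup B N} (hx : x ∈ K)
    (hlx : lef x = 0) {z : isomGroup B N} (hz : ∀ c ∈ K, c * z = z * c) {v : V} (hv : N v = 0) (hv0 : v ≠ 0) :
    z ⋅ v ∈ Submodule.span F {v} := by
  subst hm
  have hone : ∀ g : isomGroup B N, ∀ W ∈ fixSet g, finrank F W = 1 := fun g W hW =>
    le_antisymm (hr.2 W (mem_fixSet.1 hW).1)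
      (Nat.one_le_iff_ne_zero.2 fun h => (mem_fixSet.1 hW).2.1 (Submodule.finrank_eq_zero.1 h))
  have hcard : (fixSet x).card = 1 := by
    have h := hlx
    rw [lef, euler_eq, Finset.sum_congr rfl (g := fun _ => (1 : ℤ)) (fun W hW => ?_)] at h
    · simp at h; omega
    · rw [Finset.filter_false_of_mem (fun U hU hlt => by
        have := Submodule.finrank_lt_finrank_of_lt hlt
        rw [hone x W hW, hone x U hU] at this
        omega), euler_eq, Finset.sum_empty, sub_zero]
  obtain ⟨L, hL⟩ := Finset.card_eq_one.1 hcard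
  have hLm : L ∈ fixSet x := hL ▸ Finset.mem_singleton_self L
  obtain ⟨g₁, -, h₁⟩ := exists_extend hF hf (S := ∅) (t := 0) (s := 1) (by simp) zero_le_one le_rfl
    (mem_fixSet.1 hLm).1 (by rw [pre_zero]; exact bot_le) (hone x L hLm)
  obtain ⟨g₂, -, h₂⟩ := exists_extend hF hf (S := ∅) (t := 0) (s := 1) (by simp) zero_le_one le_rfl
    (ts_singleton hf hv) (by rw [pre_zero]; exact bot_le) (finrank_span_singleton hv0)
  set g := g₂ * g₁⁻¹
  have hgL : mv g L = Submodule.span F {v} := by rw [← h₁, mv_mul, mv_inv_mv, h₂]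
  have hset : fixSet (g * x * g⁻¹) = {Submodule.span F {v}} := by
    rw [fixSet_conj, hL, Finset.image_singleton, hgL]
  have hmem : Submodule.span F {v} ∈ fixSet (g * x * g⁻¹) := hset ▸ Finset.mem_singleton_self _
  have hfixz : mv z (Submodule.span F {v}) ∈ fixSet (g * x * g⁻¹) := by
    refine mem_fixSet.2 ⟨ts_mv z (mem_fixSet.1 hmem).1, mv_ne_bot z (mem_fixSet.1 hmem).2.1, ?_⟩
    rw [← mv_mul, hz _ (hn.conj_mem x hx g), mv_mul, (mem_fixSet.1 hmem).2.2]
  rw [hset, Finset.mem_singleton] at hfixz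
  exact hfixz ▸ Submodule.mem_map_of_mem (Submodule.mem_span_singleton_self v)

/-- Elements centralizing `K` act trivially on the singular subspaces. -/
theorem fixSet_of_centralizes (hn : K.Normal) (hK : commutator (isomGroup B N) ≤ K)
    {x : isomGroup B N} (hx : x ∈ K) (hlx : lef x = 0)
    {z : isomGroup B N} (hz : ∀ c ∈ K, c * z = z * c) : fixSet z = fixSet (1 : isomGroup B N) := by
  ext W
  simp only [mem_fixSet, mv_one, and_congr_right_iff]
  intro hT hne
  refine iff_of_true (mv_eq_of_le z ?_) trivial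
  rintro _ ⟨w, hw, rfl⟩
  by_cases hw0 : w = 0
  · subst hw0; simp
  have hwN := (hT w hw).1
  have hmem : z ⋅ w ∈ Submodule.span F {w} := by
    rcases Nat.lt_or_ge m 2 with hm | hm
    · rcases Nat.eq_zero_or_pos m with rfl | hm'
      · exact absurd (Submodule.finrank_eq_zero.1 (Nat.le_zero.1 (hr.2 W hT))) hne
      · exact apply_singular_of_rank_one hF hf hr hn (by omega) hx hlx hz hwN hw0
    · exact apply_singular_of_two_le hF hf hr hK hm hz hwN hw0
  exact Submodule.span_le.2 (Set.singleton_subset_iff.2 hw) hmem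

theorem lef_of_centralizes (hn : K.Normal) (hK : commutator (isomGroup B N) ≤ K)
    {x : isomGroup B N} (hx : x ∈ K) (hlx : lef x = 0)
    {z : isomGroup B N} (hz : ∀ c ∈ K, c * z = z * c) : lef z = lef (1 : isomGroup B N) := by
  rw [lef, lef, fixSet_of_centralizes hF hf hr hn hK hx hlx hz]

end

end Cfsg.Agent.KnownB.Polar
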