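import Cfsg.Agent.KnownB.Polar.Gen

/-!
# The degree is a prime power
-/

set_option autoImplicit false
set_option linter.unusedSectionVars false

namespace Cfsg.Agent.KnownB.Polar

open Cfsg.Agent.Forms Module
open Classical

universe u v

variable {F : Type u} {V : Type v} [Field F] [AddCommGroup V] [Module F V] [Finite V]
variable {σ : F →+* F} {B : V →ₛₗ[σ] V →ₗ[F] F} {N : V → F}

theorem mem_pre_one {e : ℕ → V} {x : V} :
    x ∈ (pre e 1 : Submodule F V) ↔ ∃ c : F, c • e 0 = x := by
  rw [pre, show (Set.range fun a : Fin 1 => e a) = {e 0} by simp, Submodule.mem_span_singleton]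

theorem fixSet_rank_zero {g : isomGroup B N} (hr : HasRank B N 0) : fixSet g = ∅ := by
  refine Finset.eq_empty_of_forall_notMem fun W hW => ?_
  obtain ⟨h1, h2, -⟩ := mem_fixSet.1 hW
  exact h2 (Submodule.finrank_eq_zero.1 (Nat.le_zero.1 (hr.2 W h1)))

theorem lef_rank_zero (g : isomGroup B N) (hr : HasRank B N 0) : lef g = 1 := by
  rw [lef, fixSet_rank_zero hr, euler_eq, Finset.sum_empty, sub_zero]

/-- The scalars `c` with `f 0 + c • e 0` singular. -/
def lineShift (B : V →ₛₗ[σ] V →ₗ[F] F) (N : V → F) (e f : ℕ → V) : Set F := {c | N (f 0 + c • e 0) = 0}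

/-- The singular lines not perpendicular to the first standard one. -/
noncomputable def oppLines (B : V →ₛₗ[σ] V →ₗ[F] F) (N : V → F) (e : ℕ → V) : Finset (Submodule F V) :=
  (fixSet (1 : isomGroup B N)).filter fun W => W ⊓ perp B (pre e 1) = ⊥

section

variable {m : ℕ} {e f : ℕ → V} (hF : Frame B N m e f) (hf : IsForm σ B N) (hm : 1 ≤ m)
include hF hf hm

theorem norm_shift {x : V} (hx : N x = 0) (hxe : B (e 0) x = 1) (c : F) :
    N (x + c • e 0) = N (f 0 + c • e 0) := by
  refine hf.add_eq x (f 0) _ _ (by rw [hx, hF.nf 0 hm]) rfl ?_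
  have h := hf.swap_eq (e 0) x (e 0) (f 0) (by rw [hxe, hF.ef 0 hm 0 hm, if_pos rfl])
  rw [map_smul, map_smul, h]

/-- They form an additive group. -/
def shiftGroup [Finite F] : AddSubgroup F :=
  { carrier := lineShift B N e f
    zero_mem' := by simp [lineShift, hF.nf 0 hm]
    add_mem' := fun {a b} ha hb => by
      show N (f 0 + (a + b) • e 0) = 0
      rw [add_smul, ← add_assoc, norm_shift hF hf hm ha (by
        rw [map_add, map_smul, hF.ee 0 hm 0 hm, smul_zero, add_zero, hF.ef 0 hm 0 hm, if_pos rfl]) b]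
      exact hb
    neg_mem' := fun {a} ha => by
      have h : ∀ n : ℕ, N (f 0 + (n • a) • e 0) = 0 := by
        intro n
        induction n with
        | zero => simp [hF.nf 0 hm]
        | succ n ih =>
          rw [succ_nsmul, add_smul, ← add_assoc, norm_shift hF hf hm ih (by
            rw [map_add, map_smul, hF.ee 0 hm 0 hm, smul_zero, add_zero, hF.ef 0 hm 0 hm, if_pos rfl]) a]
          exact ha
      have := h (addOrderOf a - 1)
      show N (f 0 + (-a) • e 0) = 0
      rwa [show -a = (addOrderOf a - 1) • a by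
        rw [neg_eq_iff_add_eq_zero, ← succ_nsmul', Nat.sub_add_cancel (addOrderOf_pos a),
          addOrderOf_nsmul_eq_zero]] }

theorem exists_norm_adjust (v : perpPairs B e f 1) : ∃ a : F, N (f 0 + (v : V) + a • e 0) = 0 := by
  have hv := ((mem_perpPairs hF hf hm).1 v.2 0 one_pos).1
  obtain ⟨a, ha⟩ := hf.adjust 0 (f 0 + v) (e 0) (hF.ne 0 hm) (hF.ee 0 hm 0 hm) (by
    rw [map_add, LinearMap.add_apply, hf.refl _ _ hv, add_zero]
    exact bfe_ne hF hf hm)
  exact ⟨a, ha.trans (n_zero hf)⟩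

theorem card_oppLines [Finite F] :
    (oppLines B N e).card = Nat.card (perpPairs B e f 1) * Nat.card (shiftGroup hF hf hm) := by
  choose a ha using exists_norm_adjust hF hf hm
  let pt : perpPairs B e f 1 × shiftGroup hF hf hm → V := fun p =>
    f 0 + (p.1 : V) + (a p.1 + (p.2 : F)) • e 0
  have hpe : ∀ p, B (e 0) (pt p) = 1 := fun p => by
    simp only [pt, map_add, map_smul, hF.ee 0 hm 0 hm, smul_zero, add_zero,
      ((mem_perpPairs hF hf hm).1 p.1.2 0 one_pos).1, hF.ef 0 hm 0 hm, if_true]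
  have hpN : ∀ p, N (pt p) = 0 := fun p => by
    simp only [pt, add_smul, ← add_assoc]
    rw [norm_shift hF hf hm (ha p.1) (by
      simp only [map_add, map_smul, hF.ee 0 hm 0 hm, smul_zero, add_zero,
        ((mem_perpPairs hF hf hm).1 p.1.2 0 one_pos).1, hF.ef 0 hm 0 hm, if_true])]
    exact p.2.2
  have hproj : ∀ p, proj B e f 1 (pt p) = p.1 := fun p => by
    simp only [pt, map_add, map_smul, proj_f hF hf hm one_pos, proj_e hF hf hm one_pos,
      proj_eq_self hF hf hm p.1.2, smul_zero, add_zero, zero_add]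
  have hmem : ∀ p, Submodule.span F {pt p} ∈ oppLines B N e := fun p => by
    have hp0 : pt p ≠ 0 := fun h => by simpa [h] using hpe p
    refine Finset.mem_filter.2 ⟨mem_fixSet.2 ⟨ts_singleton hf (hpN p), by simp [hp0], mv_one _⟩, ?_⟩
    rw [Submodule.eq_bot_iff]
    rintro x ⟨hx1, hx2⟩
    obtain ⟨c, rfl⟩ := Submodule.mem_span_singleton.1 hx1
    have h := hx2 _ (mem_pre one_pos)
    rw [map_smul, hpe, smul_eq_mul, mul_one] at h
    rw [h, zero_smul]
  rw [← Nat.card_prod, ← Nat.card_eq_finsetCard]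
  refine (Nat.card_congr (Equiv.ofBijective
    (fun p => (⟨Submodule.span F {pt p}, hmem p⟩ : oppLines B N e)) ⟨?_, ?_⟩)).symm
  · intro p q h
    have h1 : pt p ∈ Submodule.span F {pt q} := by
      have h' : Submodule.span F {pt p} = Submodule.span F {pt q} := congrArg Subtype.val h
      rw [← h']
      exact Submodule.mem_span_singleton_self _
    obtain ⟨c, hc⟩ := Submodule.mem_span_singleton.1 h1
    have h2 := congrArg (B (e 0)) hc
    rw [map_smul, hpe, hpe, smul_eq_mul, mul_one] at h2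
    rw [h2, one_smul] at hc
    have h3 : q.1 = p.1 := Subtype.ext ((hproj q).symm.trans ((congrArg _ hc).trans (hproj p)))
    simp only [pt, h3, add_right_inj] at hc
    have he0 : e 0 ≠ 0 := fun h => by simpa [h] using hF.ef 0 hm 0 hm
    have h4 := smul_left_injective F he0 hc
    exact Prod.ext h3.symm (Subtype.ext (add_left_cancel h4).symm)
  · rintro ⟨W, hW⟩
    obtain ⟨hW1, hW2⟩ := Finset.mem_filter.1 hW
    obtain ⟨hT, hne, -⟩ := mem_fixSet.1 hW1
    obtain ⟨x, hxW, hx0⟩ := Submodule.exists_mem_ne_zero_of_ne_bot hne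
    have hbx : B (e 0) x ≠ 0 := fun h => hx0 ((Submodule.eq_bot_iff _).1 hW2 x ⟨hxW, fun y hy => by
      obtain ⟨c, rfl⟩ := mem_pre_one.1 hy
      simp [h]⟩)
    set y := (B (e 0) x)⁻¹ • x with hy
    have hye : B (e 0) y = 1 := by rw [hy, map_smul, smul_eq_mul, inv_mul_cancel₀ hbx]
    have hyW : y ∈ W := W.smul_mem _ hxW
    have hdec : y = f 0 + proj B e f 1 y + ((B (f 0) (e 0))⁻¹ * B (f 0) y) • e 0 := by
      rw [proj_apply]
      simp [hye]
      abel
    set v : perpPairs B e f 1 := ⟨proj B e f 1 y, proj_mem hF hf hm y⟩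
    set b := (B (f 0) (e 0))⁻¹ * B (f 0) y
    have hc : b - a v ∈ shiftGroup hF hf hm := by
      show N (f 0 + (b - a v) • e 0) = 0
      rw [← norm_shift hF hf hm (ha v) (by
        simp only [map_add, map_smul, hF.ee 0 hm 0 hm, smul_zero, add_zero,
          ((mem_perpPairs hF hf hm).1 v.2 0 one_pos).1, hF.ef 0 hm 0 hm, if_true]),
        add_assoc, ← add_smul, add_sub_cancel, ← hdec]
      exact (hT y hyW).1
    refine ⟨(v, ⟨_, hc⟩), Subtype.ext ?_⟩
    show Submodule.span F {pt (v, ⟨_, hc⟩)} = W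
    have hpt : pt (v, ⟨_, hc⟩) = y := by
      simp only [pt, add_sub_cancel]
      exact hdec.symm
    rw [hpt]
    refine Submodule.eq_of_le_of_finrank_le (Submodule.span_le.2 (by simpa using hyW)) ?_
    rw [finrank_span_singleton (fun h => by simpa [h] using hye)]
    exact opp_le hF hf hW2

theorem upper_one_oppLines {W : Submodule F V} (hW : W ∈ oppLines B N e) :
    upper (1 : isomGroup B N) W =
      lef (1 : isomGroup (resForm B (perpPairs B e f 1)) (resNorm N (perpPairs B e f 1))) := by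
  obtain ⟨hW1, hW2⟩ := Finset.mem_filter.1 hW
  obtain ⟨hT, hne, -⟩ := mem_fixSet.1 hW1
  have hd : finrank F W = 1 := le_antisymm (opp_le hF hf hW2)
    (Nat.one_le_iff_ne_zero.2 fun h => hne (Submodule.finrank_eq_zero.1 h))
  obtain ⟨g, -, rfl⟩ := exists_opp hF hf (S := ∅) (k := 1) (j := 1) (by simp) hm le_rfl hT hW2 hd
  have h := upper_conj g (1 : isomGroup B N) (pre f 1)
  rw [mul_one, mul_inv_cancel] at h
  rw [h, ← map_one (red hF hf hm), ← upper_link hF hf hm]
  rfl

theorem lef_one_step [Finite F] :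
    lef (1 : isomGroup B N) = - (((Nat.card (perpPairs B e f 1) * Nat.card (shiftGroup hF hf hm) : ℕ) : ℤ) *
      lef (1 : isomGroup (resForm B (perpPairs B e f 1)) (resNorm N (perpPairs B e f 1)))) := by
  have hE : (pre e 1 : Submodule F V) ∈ fixSet (1 : isomGroup B N) :=
    mem_fixSet.2 ⟨ts_pre hF hf hm, fun h => by
      have := finrank_pre hF hm
      rw [h, finrank_bot] at this
      exact absurd this (by omega), mv_one _⟩
  rw [lef_contract hf 1 hE, neg_inj]
  refine (Finset.sum_congr rfl fun W hW => upper_one_oppLines hF hf hm (W := W) hW).trans ?_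
  rw [Finset.sum_const, nsmul_eq_mul, ← card_oppLines hF hf hm]

end

theorem lef_one_pow [Finite F] (p : ℕ) [hp : Fact p.Prime] [CharP F p] (m : ℕ) :
    ∀ {V : Type v} [AddCommGroup V] [Module F V] [Finite V] {B : V →ₛₗ[σ] V →ₗ[F] F} {N : V → F}
      {e f : ℕ → V}, Frame B N m e f → IsForm σ B N → HasRank B N m →
      ∃ a : ℕ, lef (1 : isomGroup B N) = (-1) ^ m * (p : ℤ) ^ a := by
  induction m using Nat.strong_induction_on with
  | _ m ih =>
    intro V _ _ _ B N e f hF hf hr
    rcases Nat.eq_zero_or_pos m with rfl | hm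
    · exact ⟨0, by simp [lef_rank_zero _ hr]⟩
    have := Fintype.ofFinite F
    obtain ⟨k, -, hk⟩ := FiniteField.card F p
    obtain ⟨a₁, ha₁⟩ := ih (m - 1) (by omega) (frame_shift hF hf hm) (isForm_perpPairs hF hf hm)
      (hasRank_perpPairs hF hf hm hr)
    obtain ⟨a₂, ha₂⟩ : ∃ a, Nat.card (perpPairs B e f 1) = p ^ a :=
      ⟨k * finrank F (perpPairs B e f 1), by
        rw [Module.natCard_eq_pow_finrank (K := F), Nat.card_eq_fintype_card, hk, ← pow_mul]⟩
    obtain ⟨a₃, -, ha₃⟩ := (Nat.dvd_prime_pow hp.out).1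
      (show Nat.card (shiftGroup hF hf hm) ∣ p ^ (k : ℕ) by
        rw [← hk, ← Nat.card_eq_fintype_card]; exact AddSubgroup.card_addSubgroup_dvd_card _)
    refine ⟨a₂ + a₃ + a₁, ?_⟩
    rw [lef_one_step hF hf hm, ha₁, ha₂, ha₃]
    obtain ⟨n, rfl⟩ : ∃ n, m = n + 1 := ⟨m - 1, by omega⟩
    push_cast
    ring

end Cfsg.Agent.KnownB.Polar
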