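import Cfsg.Agent.Chars2.SLDef.SteinbergPSL
import Cfsg.Agent.Chars2.Clifford
import Cfsg.Agent.Chars.PrimePowerDivisor
import Cfsg.Agent.Chars.PSolvableBlocks
import Cfsg.Agent.Forms.RankThree

/-!
# From a character with prime power degree vanishing on `p`-elements to the quotient by the centre
-/

set_option autoImplicit false
set_option linter.unusedSectionVars false
set_option linter.style.haveILetI false

namespace Cfsg.Agent.KnownB.Polar

open Cfsg Cfsg.Agent
open scoped ComplexConjugate Pointwise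
open Classical

universe u v

theorem sum_quotient {G : Type u} [Group G] [Fintype G] (Z : Subgroup G) [Fintype (G ⧸ Z)]
    (φ : G ⧸ Z → ℂ) : ∑ x : G, φ (QuotientGroup.mk x) = (Nat.card Z : ℂ) * ∑ y, φ y := by
  haveI : Fintype Z := Fintype.ofFinite _
  rw [Nat.card_eq_fintype_card, Finset.mul_sum]
  rw [← Finset.sum_fiberwise (g := fun x : G => (QuotientGroup.mk x : G ⧸ Z))]
  refine Finset.sum_congr rfl fun y _ => ?_
  rw [Finset.sum_congr rfl (g := fun _ => φ y) (fun x hx => by rw [(Finset.mem_filter.1 hx).2]),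
    Finset.sum_const, nsmul_eq_mul]
  congr 2
  obtain ⟨g, rfl⟩ := QuotientGroup.mk_surjective y
  rw [← Finset.card_univ]
  refine Finset.card_bij' (fun x hx => (⟨g⁻¹ * x, QuotientGroup.eq.1 (Finset.mem_filter.1 hx).2.symm⟩ : Z))
    (fun x _ => g * x.1) (fun x _ => Finset.mem_univ _) ?_ ?_ ?_
  · intro x _
    refine Finset.mem_filter.2 ⟨Finset.mem_univ _, ?_⟩
    exact (QuotientGroup.eq.2 (by simp)).symm
  · exact fun x _ => mul_inv_cancel_left _ _
  · exact fun x _ => Subtype.ext (inv_mul_cancel_left _ _)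

theorem classInner_inflate {G : Type u} [Group G] [Fintype G] (Z : Subgroup G) [Z.Normal]
    [Fintype (G ⧸ Z)] (f h : G ⧸ Z → ℂ) :
    classInner (fun x : G => f (QuotientGroup.mk x)) (fun x : G => h (QuotientGroup.mk x)) = classInner f h := by
  rw [Chars.classInner_def, Chars.classInner_def, sum_quotient Z fun y => f y * conj (h y),
    Subgroup.card_eq_card_quotient_mul_card_subgroup Z, Nat.cast_mul, mul_inv, ← mul_assoc,
    mul_assoc (Nat.card (G ⧸ Z) : ℂ)⁻¹, inv_mul_cancel₀ (Chars.subgroup_card_ne_zero Z), mul_one]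

/-- A Sylow subgroup is trivial when `p` does not divide the order. -/
theorem exists_steinberg_coprime {Q : Type u} [Group Q] [Finite Q] {p : ℕ} [Fact p.Prime]
    (h : ¬ p ∣ Nat.card Q) :
    ∃ η : Q → ℂ, IsIrrCharacter Q η ∧
      ∀ P : Sylow p Q, η 1 = Nat.card P ∧ ∀ x : Q, x ∈ P → x ≠ 1 → η x = 0 := by
  refine ⟨fun _ => 1, Chars.isIrrCharacter_one, fun P => ?_⟩
  have hP : Nat.card P = 1 := by
    rw [P.card_eq_multiplicity, Nat.factorization_eq_zero_of_not_dvd h, pow_zero]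
  refine ⟨by rw [hP]; simp, fun x hx hx1 => absurd ?_ hx1⟩
  have : Subsingleton P := (Nat.card_eq_one_iff_unique.1 hP).1
  exact congrArg Subtype.val (Subsingleton.elim (⟨x, hx⟩ : P) 1)

section

variable {G : Type u} [Group G] [Fintype G] {p : ℕ} [hp : Fact p.Prime]

theorem exists_defect_zero_quotient {χ : G → ℂ} (hχ : IsIrrCharacter G χ) {a : ℕ} (h1 : χ 1 = (p ^ a : ℕ))
    (N : Subgroup G) [N.Normal] (hvan : ∀ x ∈ N, x ≠ 1 → (∃ k, x ^ p ^ k = 1) → χ x = 0)
    (hcen : p ∣ Nat.card N → ∀ z ∈ Subgroup.center N, χ (z : N).1 = χ 1) :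
    ∃ η : N ⧸ Subgroup.center N → ℂ, IsIrrCharacter (N ⧸ Subgroup.center N) η ∧
      ∀ P : Sylow p (N ⧸ Subgroup.center N),
        η 1 = Nat.card P ∧ ∀ x : N ⧸ Subgroup.center N, x ∈ P → x ≠ 1 → η x = 0 := by
  set Q := N ⧸ Subgroup.center N
  haveI : Fintype N := Fintype.ofFinite _
  haveI : Fintype Q := Fintype.ofFinite _
  have hQN : Nat.card Q ∣ Nat.card N := Subgroup.card_quotient_dvd_card _
  by_cases hpN : p ∣ Nat.card N
  swap
  · exact exists_steinberg_coprime fun h => hpN (h.trans hQN)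
  have hχc := Chars.isCharacter_of_isIrr hχ
  have hres := Chars.isCharacter_restrict hχc N
  obtain ⟨β, hβ, hβval⟩ := Chars.PSolvableBlocks.exists_descend_char hres (R := Subgroup.center N)
    (fun z hz => by simpa using hcen hpN z hz)
  have hβ1 : β 1 ≠ 0 := by
    rw [← QuotientGroup.mk_one, hβval]
    simp only [Subgroup.coe_one, h1]
    exact_mod_cast pow_ne_zero _ hp.out.ne_zero
  obtain ⟨η, hηc⟩ : ∃ η : IrrCharacter Q, classInner β (η : Q → ℂ) ≠ 0 := by
    by_contra hall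
    push Not at hall
    refine hβ1 ?_
    rw [Chars2.apply_eq_sum (Chars.isClassFunction_of_isCharacter hβ) 1]
    simp only [hall, zero_mul, Finset.sum_const_zero]
  set θ : N → ℂ := fun x => (η : Q → ℂ) (QuotientGroup.mk x) with hθdef
  have hθ : IsIrrCharacter N θ :=
    Chars.isIrrCharacter_comp_surjective η.2 (QuotientGroup.mk' _) (QuotientGroup.mk'_surjective _)
  have hcon : classInner (fun x : N => χ x) θ ≠ 0 := by
    rw [show (fun x : N => χ x) = fun x : N => β (QuotientGroup.mk x) from funext fun x => (hβval x).symm,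
      hθdef, classInner_inflate]
    exact hηc
  obtain ⟨e, he⟩ := Chars.exists_classInner_eq_nat hres (Chars.isCharacter_of_isIrr hθ)
  obtain ⟨d, hd0, hd, hdvdQ⟩ := Chars.irr_degree_dvd_card η.2
  have hθ1 : θ 1 = d := by rw [hθdef]; exact hd
  set t := (Chars2.inertiaSub θ).index
  have hdeg := Chars2.clifford_degree hχ hθ hcon
  rw [h1, he, hθ1] at hdeg
  have hdeg' : p ^ a = t * e * d := by exact_mod_cast hdeg
  obtain ⟨P⟩ := (inferInstance : Nonempty (Sylow p N))
  haveI : Fintype (P : Subgroup N) := Fintype.ofFinite _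
  obtain ⟨n, hn⟩ := Chars.exists_classInner_eq_nat
    (Chars.isCharacter_restrict (Chars.isCharacter_of_isIrr hθ) (P : Subgroup N))
    (Chars.isCharacter_one (G := (P : Subgroup N)))
  have hPsum : ∑ x : (P : Subgroup N), θ x = (Nat.card (P : Subgroup N) : ℂ) * n := by
    rw [Chars.classInner_def, inv_mul_eq_iff_eq_mul₀ (Chars.subgroup_card_ne_zero _)] at hn
    simpa using hn
  -- the sum over `P` is the same for all conjugates
  have hconj : ∀ φ ∈ Chars2.orbitFinset hθ,
      ∑ x : (P : Subgroup N), (φ : N → ℂ) x = ∑ x : (P : Subgroup N), θ x := by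
    intro φ hφ
    obtain ⟨g, hg⟩ := (Chars2.mem_orbitFinset hθ).1 hφ
    set c := (MulAut.conjNormal g⁻¹ : MulAut N) with hc
    let P' : Sylow p N := P.comapOfInjective (c.symm : N →* N) c.symm.injective
      (fun y _ => ⟨c y, c.symm_apply_apply y⟩)
    have hP' : ∀ y, y ∈ P' ↔ c.symm y ∈ P := fun y => Iff.rfl
    obtain ⟨n₀, hn₀⟩ := MulAction.exists_smul_eq N P P'
    have hmem : ∀ x : N, n₀ * x * n₀⁻¹ ∈ P' ↔ x ∈ P := fun x => by
      rw [← hn₀]
      show n₀ * x * n₀⁻¹ ∈ MulAut.conj n₀ • (P : Subgroup N) ↔ _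
      rw [← MulAut.conj_apply, ← MulAut.smul_def, Subgroup.smul_mem_pointwise_smul_iff]
      exact Iff.rfl
    refine Fintype.sum_equiv
      ({ toFun := fun x => ⟨n₀⁻¹ * c x.1 * n₀, (hmem _).1 (by
          rw [hP', show n₀ * (n₀⁻¹ * c x.1 * n₀) * n₀⁻¹ = c x.1 by group, c.symm_apply_apply]
          exact x.2)⟩
         invFun := fun y => ⟨c.symm (n₀ * y.1 * n₀⁻¹), (hP' _).1 ((hmem _).2 y.2)⟩
         left_inv := fun x => Subtype.ext (by
          show c.symm (n₀ * (n₀⁻¹ * c x.1 * n₀) * n₀⁻¹) = x.1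
          rw [show n₀ * (n₀⁻¹ * c x.1 * n₀) * n₀⁻¹ = c x.1 by group, c.symm_apply_apply])
         right_inv := fun y => Subtype.ext (by
          show n₀⁻¹ * c (c.symm (n₀ * y.1 * n₀⁻¹)) * n₀ = y.1
          rw [c.apply_symm_apply]; group) } :
        (P : Subgroup N) ≃ (P : Subgroup N)) _ _ fun x => ?_
    show (φ : N → ℂ) x.1 = θ (n₀⁻¹ * c x.1 * n₀)
    rw [← hg]
    have hcl := Chars.isClassFunction_of_isCharacter (Chars.isCharacter_of_isIrr hθ) (c x.1) n₀⁻¹
    rw [inv_inv] at hcl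
    rw [hcl]
    rfl
  have hsum : (p ^ a : ℕ) = (e : ℂ) * (t * (Nat.card (P : Subgroup N) * n)) := by
    have hL : ∑ x : (P : Subgroup N), χ (x.1 : N).1 = χ 1 := by
      refine (Finset.sum_eq_single 1 (fun x _ hx => ?_) (by simp)).trans (by simp)
      obtain ⟨k, hk⟩ := P.isPGroup' x
      refine hvan _ x.1.2 (fun h => hx (Subtype.ext (Subtype.ext h))) ⟨k, ?_⟩
      exact congrArg (fun y : (P : Subgroup N) => (y.1 : N).1) hk
    rw [← h1, ← hL, Finset.sum_congr rfl fun x _ => Chars2.clifford_restrict hχ hθ hcon x.1, he,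
      ← Finset.mul_sum, Finset.sum_comm, Finset.sum_congr rfl hconj, Finset.sum_const,
      Chars2.card_orbitFinset, nsmul_eq_mul, hPsum]
  have hsum' : p ^ a = e * (t * (Nat.card (P : Subgroup N) * n)) := by exact_mod_cast hsum
  have hdn : d = Nat.card (P : Subgroup N) * n := by
    have h2 : t * e * d = t * e * (Nat.card (P : Subgroup N) * n) := by
      rw [← hdeg', hsum']; ring
    refine Nat.eq_of_mul_eq_mul_left (Nat.pos_of_ne_zero fun h => ?_) h2
    rw [h, zero_mul] at hdeg'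
    exact pow_ne_zero _ hp.out.ne_zero hdeg'
  obtain ⟨b, -, hb⟩ := (Nat.dvd_prime_pow hp.out).1 (show d ∣ p ^ a from hdeg'.symm ▸ dvd_mul_left _ _)
  set k := (Nat.card N).factorization p
  have hPc : Nat.card (P : Subgroup N) = p ^ k := P.card_eq_multiplicity
  have hbk : b = k := by
    refine le_antisymm ?_ ?_
    · exact (hp.out.pow_dvd_iff_le_factorization Nat.card_pos.ne').1 (hb ▸ hdvdQ.trans hQN)
    · exact (Nat.pow_dvd_pow_iff_le_right hp.out.one_lt).1 (by rw [← hb, ← hPc, hdn]; exact dvd_mul_right _ _)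
  subst hbk
  have hdz : ¬ p ∣ Nat.card Q / d := fun h => by
    have h2 : d * p ∣ Nat.card N := ((Nat.dvd_div_iff_mul_dvd hdvdQ).1 h).trans hQN
    rw [hb, ← pow_succ] at h2
    have := (hp.out.pow_dvd_iff_le_factorization Nat.card_pos.ne').1 h2
    omega
  refine ⟨η, η.2, fun R => ⟨?_, fun x hx hx1 => ?_⟩⟩
  · rw [hd, R.card_eq_multiplicity, hb]
    congr 2
    have h2 : (Nat.card Q).factorization p ≤ k :=
      (hp.out.pow_dvd_iff_le_factorization Nat.card_pos.ne').1 ((Nat.ordProj_dvd _ p).trans hQN)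
    have h3 : k ≤ (Nat.card Q).factorization p :=
      (hp.out.pow_dvd_iff_le_factorization Nat.card_pos.ne').1 (hb ▸ hdvdQ)
    exact le_antisymm h3 h2
  · obtain ⟨M, hMmax, hpM⟩ := DegreeGraph.exists_isMaximal_mem p
    haveI := hMmax
    refine Chars2.SLDef.defect_zero_vanish (M := M) ⟨hp.out, hMmax, hpM⟩ ?_ ?_
    · have hcd : charDegree (η : Q → ℂ) = d := by
        exact_mod_cast (Blocks.charDegree_eq η.2).1.symm.trans hd
      rwa [hcd]
    · obtain ⟨j, hj⟩ := IsPGroup.iff_orderOf.1 R.isPGroup' ⟨x, hx⟩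
      rw [Subgroup.orderOf_mk] at hj
      rcases j with _ | j
      · exact absurd (orderOf_eq_one_iff.1 (hj.trans (pow_zero p))) hx1
      · exact hj ▸ dvd_pow_self p j.succ_ne_zero

end

/-- The same for a group mapped isomorphically onto a normal subgroup. -/
theorem exists_steinberg_of_char {G : Type u} [Group G] [Fintype G] {p : ℕ} [Fact p.Prime] {χ : G → ℂ}
    (hχ : IsIrrCharacter G χ) {a : ℕ} (h1 : χ 1 = (p ^ a : ℕ)) {H : Type v} [Group H]
    (j : H →* G) (hj : Function.Injective j) (hn : j.range.Normal)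
    (hvan : ∀ x ∈ j.range, x ≠ 1 → (∃ k, x ^ p ^ k = 1) → χ x = 0)
    (hcen : p ∣ Nat.card j.range → ∀ z ∈ Subgroup.center j.range, χ (z : j.range).1 = χ 1) :
    ∃ η : H ⧸ Subgroup.center H → ℂ, IsIrrCharacter (H ⧸ Subgroup.center H) η ∧
      ∀ P : Sylow p (H ⧸ Subgroup.center H),
        η 1 = Nat.card P ∧ ∀ x : H ⧸ Subgroup.center H, x ∈ P → x ≠ 1 → η x = 0 := by
  haveI := hn
  obtain ⟨η, hη, hP⟩ := exists_defect_zero_quotient hχ h1 j.range hvan hcen
  let c := Forms.centerQuotientCongr (MonoidHom.ofInjective hj)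
  refine ⟨η ∘ c, Chars.isIrrCharacter_comp_equiv hη c, fun P => ?_⟩
  haveI : Finite H := Finite.of_injective j hj
  let P' : Sylow p (j.range ⧸ Subgroup.center j.range) :=
    P.comapOfInjective (c.symm : _ →* _) c.symm.injective
      (fun y _ => ⟨c y, c.symm_apply_apply y⟩)
  obtain ⟨h2, h3⟩ := hP P'
  refine ⟨?_, fun x hx hx1 => h3 _ ?_ ?_⟩
  · rw [Function.comp_apply, map_one, h2, P.card_eq_multiplicity, P'.card_eq_multiplicity,
      Nat.card_congr c.toEquiv]
  · show c.symm (c x) ∈ P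
    rwa [c.symm_apply_apply]
  · rwa [Ne, map_eq_one_iff _ c.injective]

end Cfsg.Agent.KnownB.Polar
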