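import Mathlib

/-!
# The reduced Euler characteristic of a finite subset of a partial order
-/

set_option autoImplicit false

namespace Cfsg.Agent.KnownB.Polar

open Classical

universe u

variable {α : Type u} [PartialOrder α]

theorem card_above_lt {s : Finset α} {x : α} (hx : x ∈ s) : (s.filter (x < ·)).card < s.card :=
  Finset.card_lt_card (Finset.filter_ssubset.2 ⟨x, hx, lt_irrefl x⟩)

/-- One minus the sum of the same quantity over the parts above each element: up to sign, the reduced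
Euler characteristic of the order complex. -/
noncomputable def euler (s : Finset α) : ℤ :=
  1 - ∑ x ∈ s.attach, euler (s.filter (x.1 < ·))
termination_by s.card
decreasing_by exact card_above_lt x.2

theorem euler_eq (s : Finset α) : euler s = 1 - ∑ x ∈ s, euler (s.filter (x < ·)) := by
  rw [euler, Finset.sum_attach s (fun x => euler (s.filter (x < ·)))]

theorem euler_empty : euler (∅ : Finset α) = 1 := by
  rw [euler_eq, Finset.sum_empty, sub_zero]

theorem euler_erase (s : Finset α) {x : α} (hx : x ∈ s) :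
    euler s = euler (s.erase x) - euler (s.filter (· < x)) * euler (s.filter (x < ·)) := by
  induction hn : s.card using Nat.strong_induction_on generalizing s x with
  | _ n ih =>
  have hterm : ∀ y ∈ s.erase x, euler (s.filter (y < ·)) =
      euler ((s.erase x).filter (y < ·)) -
        (if y < x then euler ((s.filter (· < x)).filter (y < ·)) else 0) * euler (s.filter (x < ·)) := by
    intro y hy
    split_ifs with hyx
    · have hxm : x ∈ s.filter (y < ·) := Finset.mem_filter.2 ⟨hx, hyx⟩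
      rw [ih _ (hn ▸ card_above_lt (Finset.mem_of_mem_erase hy)) _ hxm rfl]
      congr 2
      · congr 1; ext z; simp only [Finset.mem_erase, Finset.mem_filter]; tauto
      · congr 1; ext z; simp only [Finset.mem_filter]; tauto
      · congr 1; ext z
        simp only [Finset.mem_filter]
        exact ⟨fun h => ⟨h.1.1, h.2⟩, fun h => ⟨⟨h.1, hyx.trans h.2⟩, h.2⟩⟩
    · rw [zero_mul, sub_zero]
      congr 1; ext z
      simp only [Finset.mem_erase, Finset.mem_filter]
      exact ⟨fun h => ⟨⟨fun e => hyx (e ▸ h.2), h.1⟩, h.2⟩, fun h => ⟨h.1.2, h.2⟩⟩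
  have hbelow : ∑ y ∈ s.erase x, (if y < x then euler ((s.filter (· < x)).filter (y < ·)) else 0) =
      1 - euler (s.filter (· < x)) := by
    rw [← Finset.sum_filter, euler_eq (s.filter (· < x)), sub_sub_cancel]
    refine Finset.sum_congr ?_ fun _ _ => rfl
    ext z
    simp only [Finset.mem_erase, Finset.mem_filter]
    exact ⟨fun h => ⟨h.1.2, h.2⟩, fun h => ⟨⟨h.2.ne, h.1⟩, h.2⟩⟩
  rw [euler_eq s, ← Finset.add_sum_erase _ _ hx, Finset.sum_congr rfl hterm, Finset.sum_sub_distrib,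
    ← Finset.sum_mul, hbelow, euler_eq (s.erase x)]
  ring

theorem euler_eq_zero_of_top {s : Finset α} {t : α} (ht : t ∈ s) (h : ∀ x ∈ s, x ≤ t) : euler s = 0 := by
  rw [euler_erase s ht]
  have h1 : s.filter (t < ·) = ∅ := Finset.filter_eq_empty_iff.2 fun {z} hz hlt => not_le_of_gt hlt (h z hz)
  have h2 : s.filter (· < t) = s.erase t := by
    ext z
    simp only [Finset.mem_filter, Finset.mem_erase]
    exact ⟨fun a => ⟨a.2.ne, a.1⟩, fun a => ⟨a.2, lt_of_le_of_ne (h z a.2) a.1⟩⟩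
  rw [h1, h2, euler_empty, mul_one, sub_self]

theorem euler_eq_zero_of_bot {s : Finset α} {t : α} (ht : t ∈ s) (h : ∀ x ∈ s, t ≤ x) : euler s = 0 := by
  rw [euler_erase s ht]
  have h1 : s.filter (· < t) = ∅ := Finset.filter_eq_empty_iff.2 fun {z} hz hlt => not_le_of_gt hlt (h z hz)
  have h2 : s.filter (t < ·) = s.erase t := by
    ext z
    simp only [Finset.mem_filter, Finset.mem_erase]
    exact ⟨fun a => ⟨a.2.ne', a.1⟩, fun a => ⟨a.2, lt_of_le_of_ne (h z a.2) (Ne.symm a.1)⟩⟩
  rw [h1, h2, euler_empty, one_mul, sub_self]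

/-- Retracting downwards. -/
theorem euler_retract_down {s q : Finset α} (hqs : q ⊆ s) (f : α → α)
    (hf : ∀ x ∈ s, x ∉ q → f x ∈ q ∧ f x < x ∧ ∀ y ∈ q, y < x → y ≤ f x) : euler s = euler q := by
  induction hn : (s \ q).card using Nat.strong_induction_on generalizing s with
  | _ n ih =>
  rcases (s \ q).eq_empty_or_nonempty with h | h
  · rw [Finset.sdiff_eq_empty_iff_subset] at h
    rw [le_antisymm h hqs]
  obtain ⟨x, hx⟩ := Finset.exists_minimal h
  obtain ⟨hxs, hxq⟩ := Finset.mem_sdiff.1 hx.prop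
  obtain ⟨hfq, hflt, hfmax⟩ := hf x hxs hxq
  have hbq : ∀ z ∈ s, z < x → z ∈ q := fun z hz hzx => by
    by_contra hzq
    exact not_le_of_gt hzx (hx.le_of_le (Finset.mem_sdiff.2 ⟨hz, hzq⟩) hzx.le)
  rw [euler_erase s hxs, euler_eq_zero_of_top (t := f x) (s := s.filter (· < x))
    (Finset.mem_filter.2 ⟨hqs hfq, hflt⟩) (fun z hz => by
      obtain ⟨hz1, hz2⟩ := Finset.mem_filter.1 hz
      exact hfmax z (hbq z hz1 hz2) hz2), zero_mul, sub_zero]
  refine ih ((s.erase x \ q).card) ?_ ?_ ?_ rfl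
  · rw [← hn]
    refine Finset.card_lt_card ⟨fun z hz => ?_, fun hsub => ?_⟩
    · obtain ⟨a, b⟩ := Finset.mem_sdiff.1 hz
      exact Finset.mem_sdiff.2 ⟨Finset.mem_of_mem_erase a, b⟩
    · exact (Finset.ne_of_mem_erase (Finset.mem_sdiff.1 (hsub hx.prop)).1) rfl
  · exact fun z hz => Finset.mem_erase.2 ⟨fun e => hxq (e ▸ hz), hqs hz⟩
  · exact fun z hz hzq => hf z (Finset.mem_of_mem_erase hz) hzq

/-- Retracting upwards. -/
theorem euler_retract_up {s q : Finset α} (hqs : q ⊆ s) (f : α → α)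
    (hf : ∀ x ∈ s, x ∉ q → f x ∈ q ∧ x < f x ∧ ∀ y ∈ q, x < y → f x ≤ y) : euler s = euler q := by
  induction hn : (s \ q).card using Nat.strong_induction_on generalizing s with
  | _ n ih =>
  rcases (s \ q).eq_empty_or_nonempty with h | h
  · rw [Finset.sdiff_eq_empty_iff_subset] at h
    rw [le_antisymm h hqs]
  obtain ⟨x, hx⟩ := Finset.exists_maximal h
  obtain ⟨hxs, hxq⟩ := Finset.mem_sdiff.1 hx.prop
  obtain ⟨hfq, hflt, hfmin⟩ := hf x hxs hxq
  have hbq : ∀ z ∈ s, x < z → z ∈ q := fun z hz hxz => by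
    by_contra hzq
    exact not_le_of_gt hxz (hx.le_of_ge (Finset.mem_sdiff.2 ⟨hz, hzq⟩) hxz.le)
  rw [euler_erase s hxs, euler_eq_zero_of_bot (t := f x) (s := s.filter (x < ·))
    (Finset.mem_filter.2 ⟨hqs hfq, hflt⟩) (fun z hz => by
      obtain ⟨hz1, hz2⟩ := Finset.mem_filter.1 hz
      exact hfmin z (hbq z hz1 hz2) hz2), mul_zero, sub_zero]
  refine ih ((s.erase x \ q).card) ?_ ?_ ?_ rfl
  · rw [← hn]
    refine Finset.card_lt_card ⟨fun z hz => ?_, fun hsub => ?_⟩
    · obtain ⟨a, b⟩ := Finset.mem_sdiff.1 hz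
      exact Finset.mem_sdiff.2 ⟨Finset.mem_of_mem_erase a, b⟩
    · exact (Finset.ne_of_mem_erase (Finset.mem_sdiff.1 (hsub hx.prop)).1) rfl
  · exact fun z hz => Finset.mem_erase.2 ⟨fun e => hxq (e ▸ hz), hqs hz⟩
  · exact fun z hz hzq => hf z (Finset.mem_of_mem_erase hz) hzq

/-- An upwards closed part of vanishing Euler characteristic. -/
theorem euler_split {s C : Finset α} (hCs : C ⊆ s) (hup : ∀ x ∈ C, ∀ y ∈ s, x < y → y ∈ C)
    (hC : euler C = 0) : euler s = - ∑ y ∈ s \ C, euler (s.filter (y < ·)) := by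
  have h : ∀ x ∈ C, euler (C.filter (x < ·)) = euler (s.filter (x < ·)) := fun x hx => by
    congr 1; ext z
    simp only [Finset.mem_filter]
    exact ⟨fun h => ⟨hCs h.1, h.2⟩, fun h => ⟨hup x hx z h.1 h.2, h.2⟩⟩
  rw [euler_eq C, Finset.sum_congr rfl h] at hC
  rw [euler_eq s, ← Finset.sum_sdiff hCs]
  omega

/-- Invariance under order isomorphisms. -/
theorem euler_image {β : Type u} [PartialOrder β] (f : α → β) (s : Finset α)
    (hf : ∀ x ∈ s, ∀ y ∈ s, (f x < f y ↔ x < y)) (hinj : Set.InjOn f s) :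
    euler (s.image f) = euler s := by
  induction hn : s.card using Nat.strong_induction_on generalizing s with
  | _ n ih =>
  rw [euler_eq (s.image f), euler_eq s, Finset.sum_image hinj]
  congr 1
  refine Finset.sum_congr rfl fun x hx => ?_
  rw [← ih _ (hn ▸ card_above_lt hx) (s.filter (x < ·))
    (fun a ha b hb => hf a (Finset.mem_of_mem_filter _ ha) b (Finset.mem_of_mem_filter _ hb))
    (hinj.mono (Finset.coe_subset.2 (Finset.filter_subset _ _))) rfl]
  congr 1; ext z
  simp only [Finset.mem_filter, Finset.mem_image]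
  constructor
  · rintro ⟨⟨a, ha, rfl⟩, h⟩
    exact ⟨a, ⟨ha, (hf x hx a ha).1 h⟩, rfl⟩
  · rintro ⟨a, ⟨ha, h⟩, rfl⟩
    exact ⟨⟨a, ha, rfl⟩, (hf x hx a ha).2 h⟩

end Cfsg.Agent.KnownB.Polar
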