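import Cfsg.Agent.KnownB.Polar.Norm

/-!
# The Lefschetz class function is, up to sign, an irreducible character
-/

set_option autoImplicit false
set_option linter.unusedSectionVars false

namespace Cfsg.Agent.KnownB.Polar

open Cfsg.Agent.Forms Module
open Classical

universe u v

variable {F : Type u} {V : Type v} [Field F] [AddCommGroup V] [Module F V] [Finite V]
variable {σ : F →+* F} {B : V →ₛₗ[σ] V →ₗ[F] F} {N : V → F}

/-- An integral function is a generalized character on a subgroup. -/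
def GenOn {G : Type*} [Group G] (K : Subgroup G) (φ : G → ℤ) : Prop :=
  IsGeneralizedCharacter K (fun g : K => (φ g : ℂ))

theorem gen_orbit (K : Subgroup (isomGroup B N)) {O : Finset (Submodule F V)} {y₀ : Submodule F V}
    (hy₀ : y₀ ∈ O) (hO : ∀ k ∈ K, ∀ y ∈ O, mv k y ∈ O) (htr : ∀ y ∈ O, ∃ k ∈ K, mv k y₀ = y)
    (φ : isomGroup B N → Submodule F V → ℤ) (hφ : ∀ k g y, φ (k * g * k⁻¹) (mv k y) = φ g y)
    (h : GenOn (K ⊓ stab B N y₀) (fun g => φ g y₀)) :
    GenOn K (fun g => ∑ y ∈ O.filter (fun y => mv g y = y), φ g y) := by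
  set H : Subgroup K := (stab B N y₀).subgroupOf K with hH
  let θ : H → ℂ := fun x => (φ (x.1 : K).1 y₀ : ℂ)
  have hθ : IsGeneralizedCharacter H θ := by
    let π : H →* ↥(K ⊓ stab B N y₀) :=
      (K.subtype.comp H.subtype).codRestrict _ fun x => ⟨(x.1).2, x.2⟩
    exact Chars.isGen_comp h π
  have h1 := Chars.isGen_indFun H hθ
  suffices he : indFun H θ = fun g : K =>
      ((∑ y ∈ O.filter (fun y => mv g.1 y = y), φ g.1 y : ℤ) : ℂ) by
    rw [he] at h1
    exact h1
  funext g
  rw [Chars.indFun_apply]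
  have hterm : ∀ x : K, Cfsg.extendByZero H θ (x⁻¹ * g * x) =
      if mv g.1 (mv x.1 y₀) = mv x.1 y₀ then (φ g.1 (mv x.1 y₀) : ℂ) else 0 := by
    intro x
    have hiff : x⁻¹ * g * x ∈ H ↔ mv g.1 (mv x.1 y₀) = mv x.1 y₀ := by
      rw [hH, Subgroup.mem_subgroupOf, mem_stab]
      show mv (x.1⁻¹ * g.1 * x.1) y₀ = y₀ ↔ _
      rw [mv_mul, mv_mul]
      exact ⟨fun h => by conv_rhs => rw [← h, mv_mv_inv],
        fun h => by rw [h, mv_inv_mv]⟩
    rw [Chars.extendByZero_eq_ite]
    by_cases hc : x⁻¹ * g * x ∈ H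
    · rw [dif_pos hc, if_pos (hiff.1 hc)]
      show (φ (x.1⁻¹ * g.1 * x.1) y₀ : ℂ) = _
      rw [← hφ x.1 (x.1⁻¹ * g.1 * x.1) y₀]
      congr 2
      group
    · rw [dif_neg hc, if_neg (fun h => hc (hiff.2 h))]
  simp only [hterm]
  rw [← Finset.sum_fiberwise_of_maps_to (t := O) (g := fun x : K => mv x.1 y₀)
    (fun x _ => hO _ x.2 _ hy₀)]
  have hfib : ∀ y ∈ O, ∑ x : K with mv x.1 y₀ = y,
      (if mv g.1 (mv x.1 y₀) = mv x.1 y₀ then (φ g.1 (mv x.1 y₀) : ℂ) else 0) =
      (Nat.card H : ℂ) * if mv g.1 y = y then (φ g.1 y : ℂ) else 0 := by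
    intro y hy
    rw [Finset.sum_congr rfl (g := fun _ => if mv g.1 y = y then (φ g.1 y : ℂ) else 0)
      (fun x hx => by rw [(Finset.mem_filter.1 hx).2]), Finset.sum_const, nsmul_eq_mul]
    congr 1
    obtain ⟨k, hk, rfl⟩ := htr y hy
    rw [Nat.card_eq_fintype_card, ← Finset.card_univ]
    congr 1
    refine Finset.card_bij' (fun x hx => (⟨(⟨k, hk⟩ : K)⁻¹ * x, ?_⟩ : H))
      (fun x _ => (⟨k, hk⟩ : K) * x.1) (fun x _ => Finset.mem_univ _) ?_ ?_ ?_
    · rw [hH, Subgroup.mem_subgroupOf, mem_stab]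
      show mv (k⁻¹ * x.1) y₀ = y₀
      rw [mv_mul, (Finset.mem_filter.1 hx).2, mv_inv_mv]
    · intro x _
      refine Finset.mem_filter.2 ⟨Finset.mem_univ _, ?_⟩
      show mv (k * x.1.1) y₀ = mv k y₀
      rw [mv_mul, mem_stab.1 (Subgroup.mem_subgroupOf.1 x.2)]
    · exact fun x _ => mul_inv_cancel_left _ _
    · exact fun x _ => Subtype.ext (inv_mul_cancel_left _ _)
  rw [Finset.sum_congr rfl hfib, ← Finset.mul_sum, ← mul_assoc,
    inv_mul_cancel₀ (Chars.subgroup_card_ne_zero H), one_mul, ← Finset.sum_filter]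
  push_cast
  rfl

section

variable {m : ℕ} {e f : ℕ → V} (hF : Frame B N m e f) (hf : IsForm σ B N) (hr : HasRank B N m)
include hF hf hr

theorem gen_upper (d : ℕ) : ∀ {S : Finset ℕ} {t : ℕ}, m - t = d → (∀ a ∈ S, a ≤ t) → t ≤ m →
    (∀ g ∈ stabS B N e S, mv g (pre e t) = pre e t) →
    GenOn (stabS B N e S) (fun g => upper g (pre e t)) := by
  induction d using Nat.strong_induction_on with
  | _ d ih =>
    intro S t hd hS ht hfix
    let O : ℕ → Finset (Submodule F V) := fun s =>
      Finset.univ.filter fun W => TS B N W ∧ pre e t < W ∧ finrank F W = s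
    have hsum : ∀ g ∈ stabS B N e S, upper g (pre e t) =
        1 - ∑ s ∈ Finset.Ioc t m, ∑ W ∈ (O s).filter (fun W => mv g W = W), upper g W := by
      intro g _
      rw [upper_expand g (pre e t),
        ← Finset.sum_fiberwise_of_maps_to (t := Finset.Ioc t m) (g := fun W : Submodule F V => finrank F W)]
      · congr 1
        refine Finset.sum_congr rfl fun s hs => Finset.sum_congr ?_ fun _ _ => rfl
        ext W
        simp only [O, Finset.mem_filter, mem_fixSet, Finset.mem_univ, true_and]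
        constructor
        · rintro ⟨⟨⟨hT, -, hfx⟩, hlt⟩, hd⟩
          exact ⟨⟨hT, hlt, hd⟩, hfx⟩
        · rintro ⟨⟨hT, hlt, hd⟩, hfx⟩
          exact ⟨⟨⟨hT, ne_bot_of_gt hlt, hfx⟩, hlt⟩, hd⟩
      · intro W hW
        obtain ⟨h1, hlt⟩ := Finset.mem_filter.1 hW
        have := Submodule.finrank_lt_finrank_of_lt hlt
        rw [finrank_pre hF ht] at this
        exact Finset.mem_Ioc.2 ⟨this, hr.2 _ (mem_fixSet.1 h1).1⟩
    have hgen : ∀ s ∈ Finset.Ioc t m,
        GenOn (stabS B N e S) (fun g => ∑ W ∈ (O s).filter (fun W => mv g W = W), upper g W) := by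
      intro s hs
      obtain ⟨hts, hsm⟩ := Finset.mem_Ioc.1 hs
      refine gen_orbit _ (y₀ := pre e s) ?_ (fun k hk W hW => ?_) (fun W hW => ?_)
        (fun g W => upper g W) upper_conj ?_
      · simp only [O, Finset.mem_filter]
        refine ⟨Finset.mem_univ _, ts_pre hF hf hsm, lt_of_le_of_ne (pre_mono e hts.le) fun h => ?_,
          finrank_pre hF hsm⟩
        have := congrArg (fun W : Submodule F V => finrank F W) h
        simp only [finrank_pre hF hsm, finrank_pre hF ht] at this
        omega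
      · simp only [O, Finset.mem_filter] at hW ⊢
        refine ⟨Finset.mem_univ _, ts_mv k hW.2.1, ?_, by rw [finrank_mv, hW.2.2.2]⟩
        rw [← hfix k hk]
        exact (mv_lt_iff k).2 hW.2.2.1
      · simp only [O, Finset.mem_filter] at hW
        exact exists_extend hF hf hS hts.le hsm hW.2.1 hW.2.2.1.le hW.2.2.2
      · rw [← stabS_insert]
        refine ih (m - s) (by omega) rfl (fun a ha => ?_) hsm
          (fun g hg => hg s (Finset.mem_insert_self _ _))
        rcases Finset.mem_insert.1 ha with rfl | ha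
        · exact le_rfl
        · exact (hS a ha).trans hts.le
    have h := Chars.isGen_sub (Chars.isGen_one (G := ↥(stabS B N e S)))
      (Chars.isGen_sum (Finset.Ioc t m) _ hgen)
    unfold GenOn
    convert h using 1
    funext g
    simp only [hsum g.1 g.2]
    simp [Finset.sum_apply]

theorem isGen_lef : IsGeneralizedCharacter (isomGroup B N) (fun g => (lef g : ℂ)) := by
  have h := gen_upper hF hf hr m (S := ∅) (t := 0) (by omega) (by simp) (Nat.zero_le _)
    (fun g _ => by rw [pre_zero]; exact Submodule.map_bot _)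
  let π : isomGroup B N →* ↥(stabS B N e ∅) :=
    (MonoidHom.id _).codRestrict _ fun g s hs => absurd hs (Finset.notMem_empty _)
  have h1 := Chars.isGen_comp h π
  convert h1 using 1
  funext g
  simp only [Function.comp, pre_zero, upper_bot]
  rfl

/-- Up to sign the Lefschetz numbers form an irreducible character. -/
theorem lef_irr :
    IsIrrCharacter (isomGroup B N) (fun g => (lef g : ℂ)) ∨
      IsIrrCharacter (isomGroup B N) (-(fun g => (lef g : ℂ))) := by
  refine Chars.isIrrCharacter_of_gen_norm_one (isGen_lef hF hf hr) ?_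
  rw [Chars.classInner_def]
  simp only [map_intCast]
  rw [Finset.sum_congr rfl (g := fun g : isomGroup B N => ((lef g * lef g : ℤ) : ℂ))
    (fun g _ => by push_cast; rfl), ← Int.cast_sum, sum_lef_sq hF hf hr, Nat.card_eq_fintype_card]
  push_cast
  exact inv_mul_cancel₀ (by exact_mod_cast Fintype.card_ne_zero)

end

end Cfsg.Agent.KnownB.Polar
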