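import Cfsg.Agent.KnownB.Polar.Reduce

/-!
# The link of a totally singular subspace
-/

set_option autoImplicit false
set_option linter.unusedSectionVars false

namespace Cfsg.Agent.KnownB.Polar

open Cfsg.Agent.Forms Module
open Classical

universe u v

variable {F : Type u} {V : Type v} [Field F] [AddCommGroup V] [Module F V] [Finite V]
variable {σ : F →+* F} {B : V →ₛₗ[σ] V →ₗ[F] F} {N : V → F}

/-- The stabiliser of a subspace. -/
def stab (B : V →ₛₗ[σ] V →ₗ[F] F) (N : V → F) (y : Submodule F V) : Subgroup (isomGroup B N) where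
  carrier := {g | mv g y = y}
  one_mem' := mv_one _
  mul_mem' := fun {a b} ha hb => by
    show mv (a * b) y = y
    rw [mv_mul, hb, ha]
  inv_mem' := fun {a} ha => by
    show mv a⁻¹ y = y
    conv_lhs => rw [← (ha : mv a y = y)]
    exact mv_inv_mv a _

theorem mem_stab {y : Submodule F V} {g : isomGroup B N} : g ∈ stab B N y ↔ mv g y = y := Iff.rfl

section

variable {m : ℕ} {e f : ℕ → V} (hF : Frame B N m e f) (hf : IsForm σ B N) {j : ℕ} (hj : j ≤ m)
include hF hf hj

theorem apply_perp_f (g : stab B N (pre f j)) {x : V} (hx : x ∈ perp B (pre f j)) :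
    (g.1 : V ≃ₗ[F] V) x ∈ perp B (pre f j) :=
  apply_mem g.1 (by rw [mv_perp, mem_stab.1 g.2]) hx

/-- The induced linear map on the perpendicular space. -/
noncomputable def redLin (g : stab B N (pre f j)) : perpPairs B e f j →ₗ[F] perpPairs B e f j :=
  ((proj B e f j).comp (((g.1 : V ≃ₗ[F] V) : V →ₗ[F] V).comp (perpPairs B e f j).subtype)).codRestrict _
    (fun _ => proj_mem hF hf hj _)

theorem redLin_coe (g : stab B N (pre f j)) (x : perpPairs B e f j) :
    (redLin hF hf hj g x : V) = proj B e f j ((g.1 : V ≃ₗ[F] V) x) := rfl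

theorem proj_apply_proj (g : stab B N (pre f j)) {x : V} (hx : x ∈ perp B (pre f j)) :
    proj B e f j ((g.1 : V ≃ₗ[F] V) (proj B e f j x)) = proj B e f j ((g.1 : V ≃ₗ[F] V) x) := by
  have h := apply_mem g.1 (mem_stab.1 g.2) (proj_split hF hf hj hx)
  have h2 := proj_kills hF hf hj (Submodule.mem_sup_right h)
  rw [map_sub, map_sub, sub_eq_zero] at h2
  exact h2.symm

theorem redLin_mul (g h : stab B N (pre f j)) (x : perpPairs B e f j) :
    redLin hF hf hj g (redLin hF hf hj h x) = redLin hF hf hj (g * h) x := by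
  refine Subtype.ext ?_
  rw [redLin_coe, redLin_coe, redLin_coe,
    proj_apply_proj hF hf hj g (apply_perp_f hF hf hj h (perpPairs_le hF hf hj x.2))]
  rfl

theorem redLin_one (x : perpPairs B e f j) : redLin hF hf hj 1 x = x :=
  Subtype.ext (proj_eq_self hF hf hj x.2)

/-- The induced isometry of the perpendicular space. -/
noncomputable def red : stab B N (pre f j) →* isomGroup (resForm B (perpPairs B e f j)) (resNorm N (perpPairs B e f j)) where
  toFun g := ⟨LinearEquiv.ofLinear (redLin hF hf hj g) (redLin hF hf hj g⁻¹)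
    (LinearMap.ext fun x => by rw [LinearMap.comp_apply, redLin_mul, mul_inv_cancel, redLin_one]; rfl)
    (LinearMap.ext fun x => by rw [LinearMap.comp_apply, redLin_mul, inv_mul_cancel, redLin_one]; rfl),
    fun x y => by
      show B (proj B e f j ((g.1 : V ≃ₗ[F] V) (x : V))) (proj B e f j ((g.1 : V ≃ₗ[F] V) (y : V))) = B (x : V) (y : V)
      rw [(proj_isom hF hf hj (apply_perp_f hF hf hj g (perpPairs_le hF hf hj x.2))
        (apply_perp_f hF hf hj g (perpPairs_le hF hf hj y.2))).1]
      exact g.1.2.1 _ _,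
    fun x => by
      show N (proj B e f j ((g.1 : V ≃ₗ[F] V) (x : V))) = N (x : V)
      rw [(proj_isom hF hf hj (apply_perp_f hF hf hj g (perpPairs_le hF hf hj x.2))
        (apply_perp_f hF hf hj g (perpPairs_le hF hf hj x.2))).2]
      exact g.1.2.2 _⟩
  map_one' := Subtype.ext (LinearEquiv.ext fun x => redLin_one hF hf hj x)
  map_mul' g h := Subtype.ext (LinearEquiv.ext fun x => (redLin_mul hF hf hj g h x).symm)

theorem red_coe (g : stab B N (pre f j)) (x : perpPairs B e f j) :
    ((red hF hf hj g).1 x : V) = proj B e f j ((g.1 : V ≃ₗ[F] V) x) := rfl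

theorem ts_map_subtype {U : Submodule F (perpPairs B e f j)}
    (hU : TS (resForm B (perpPairs B e f j)) (resNorm N (perpPairs B e f j)) U) :
    TS B N (pre f j ⊔ U.map (perpPairs B e f j).subtype) := by
  refine ts_sup hf (ts_pre_f hF hf hj) ?_ ((Submodule.map_subtype_le _ U).trans (perpPairs_le hF hf hj))
  rintro _ ⟨x, hx, rfl⟩
  refine ⟨(hU x hx).1, ?_⟩
  rintro _ ⟨y, hy, rfl⟩
  exact (hU x hx).2 y hy

theorem comap_sup (U : Submodule F (perpPairs B e f j)) :
    (pre f j ⊔ U.map (perpPairs B e f j).subtype).comap (perpPairs B e f j).subtype = U := by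
  refine le_antisymm ?_ (Submodule.map_le_iff_le_comap.1 le_sup_right)
  intro x hx
  obtain ⟨a, ha, _, ⟨u, hu, rfl⟩, h⟩ := Submodule.mem_sup.1 hx
  have h2 := congrArg (proj B e f j) h
  rw [map_add, proj_kills hF hf hj (Submodule.mem_sup_right ha), zero_add, Submodule.coe_subtype,
    proj_eq_self hF hf hj u.2, proj_eq_self hF hf hj x.2] at h2
  rwa [← Subtype.ext h2]

/-- The part of the fixed poset above `pre f j` is the fixed poset of the induced isometry. -/
theorem upper_link (g : stab B N (pre f j)) : upper g.1 (pre f j) = lef (red hF hf hj g) := by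
  set em : Submodule F (perpPairs B e f j) → Submodule F V := fun U =>
    pre f j ⊔ U.map (perpPairs B e f j).subtype with hem
  have hinj : Function.Injective em := fun U U' h => by
    rw [← comap_sup hF hf hj U, ← comap_sup hF hf hj U']
    exact congrArg _ h
  have hmono : ∀ U U', em U ≤ em U' ↔ U ≤ U' := fun U U' => by
    refine ⟨fun h => ?_, fun h => sup_le_sup_left (Submodule.map_mono h) _⟩
    rw [← comap_sup hF hf hj U, ← comap_sup hF hf hj U']
    exact Submodule.comap_mono h
  rw [upper, lef, ← euler_image em (fixSet (red hF hf hj g))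
    (fun U _ U' _ => by simp only [lt_iff_le_not_ge, hmono]) hinj.injOn]
  congr 1
  ext W
  simp only [Finset.mem_filter, Finset.mem_image, mem_fixSet]
  have hy := mem_stab.1 g.2
  constructor
  · rintro ⟨⟨hT, -, hfx⟩, hlt⟩
    have hWp : W ≤ perp B (pre f j) := fun x hx a ha => (hT a (hlt.le ha)).2 x hx
    set U := W.comap (perpPairs B e f j).subtype with hUdef
    have heq : em U = W := by
      refine le_antisymm (sup_le hlt.le (Submodule.map_comap_le _ _)) fun x hx => ?_
      have hs := proj_split hF hf hj (hWp hx)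
      have hp : proj B e f j x ∈ W := by simpa using sub_mem hx (hlt.le hs)
      rw [← sub_add_cancel x (proj B e f j x)]
      exact Submodule.add_mem_sup hs ⟨⟨_, proj_mem hF hf hj x⟩, hp, rfl⟩
    refine ⟨U, ⟨?_, fun h => ?_, ?_⟩, heq⟩
    · exact fun x hx => ⟨(hT _ hx).1, fun y hy' => (hT _ hx).2 _ hy'⟩
    · refine hlt.ne ?_
      rw [← heq, h]
      simp [hem]
    · refine mv_eq_of_le _ ?_
      rintro _ ⟨x, hx, rfl⟩
      show proj B e f j ((g.1 : V ≃ₗ[F] V) x) ∈ W
      have hgx := apply_mem g.1 hfx hx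
      simpa using sub_mem hgx (hlt.le (proj_split hF hf hj (hWp hgx)))
  · rintro ⟨U, ⟨hT, hne, hfx⟩, rfl⟩
    refine ⟨⟨ts_map_subtype hF hf hj hT, fun h => hne ?_, mv_eq_of_le _ ?_⟩, ?_⟩
    · exact Submodule.map_injective_of_injective (perpPairs B e f j).subtype_injective
        ((sup_eq_bot_iff.1 h).2.trans (Submodule.map_bot _).symm)
    · rw [hem, mv_sup, hy]
      refine sup_le le_sup_left ?_
      rintro _ ⟨_, ⟨x, hx, rfl⟩, rfl⟩
      have hp : proj B e f j ((g.1 : V ≃ₗ[F] V) x) ∈ U.map (perpPairs B e f j).subtype :=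
        ⟨_, apply_mem _ hfx hx, rfl⟩
      show (g.1 : V ≃ₗ[F] V) (x : V) ∈ _
      rw [← sub_add_cancel ((g.1 : V ≃ₗ[F] V) (x : V)) (proj B e f j ((g.1 : V ≃ₗ[F] V) x))]
      exact Submodule.add_mem_sup (proj_split hF hf hj (apply_perp_f hF hf hj g (perpPairs_le hF hf hj x.2))) hp
    · rw [show (pre f j : Submodule F V) = em ⊥ by simp [hem]]
      exact lt_iff_le_not_ge.2 ⟨(hmono _ _).2 bot_le, fun h => hne (le_bot_iff.1 ((hmono _ _).1 h))⟩

theorem proj_pre_mem {s : ℕ} (hjs : j ≤ s) (hs : s ≤ m) {x : V} (hx : x ∈ (pre e s : Submodule F V)) :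
    proj B e f j x ∈ (pre e s : Submodule F V) := by
  rw [proj_apply]
  have h : ∀ b : Fin j, B (e b) x = 0 := fun b =>
    (ts_pre hF hf hs _ (mem_pre (by omega))).2 _ hx
  simp only [h, zero_smul, Finset.sum_const_zero, sub_zero]
  exact sub_mem hx (Submodule.sum_mem _ fun b _ => Submodule.smul_mem _ _ (mem_pre (by omega)))

/-- The dimensions of the induced flag. -/
def shiftSet (S : Finset ℕ) (j : ℕ) : Finset ℕ := (S.image (· - j)).erase 0

theorem red_mem {S : Finset ℕ} (hS : ∀ s ∈ S, j ≤ s ∧ s ≤ m) (g : stab B N (pre f j))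
    (hg : g.1 ∈ stabS B N e S) :
    red hF hf hj g ∈ stabS (resForm B (perpPairs B e f j)) (resNorm N (perpPairs B e f j))
      (shift hF hf hj e) (shiftSet S j) := by
  intro i hi
  obtain ⟨s, hs, rfl⟩ := Finset.mem_image.1 (Finset.mem_of_mem_erase hi)
  obtain ⟨hjs, hsm⟩ := hS s hs
  have hmap := map_pre_shift hF hf hj (i := s - j) (by omega)
  rw [show j + (s - j) = s by omega] at hmap
  refine mv_eq_of_le _ (Submodule.map_le_iff_le_comap.2 fun x hx => ?_)
  have hxs : (x : V) ∈ (pre e s : Submodule F V) :=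
    (hmap.le (Submodule.mem_map_of_mem hx)).1
  have hgx := apply_mem g.1 (hg s hs) hxs
  have h2 : ((red hF hf hj g).1 x : V) ∈
      (pre (shift hF hf hj e) (s - j)).map (perpPairs B e f j).subtype :=
    hmap.ge ⟨proj_pre_mem hF hf hj hjs hsm hgx, Subtype.prop _⟩
  obtain ⟨z, hz, hzx⟩ := h2
  show (red hF hf hj g).1 x ∈ (pre (shift hF hf hj e) (s - j) : Submodule F (perpPairs B e f j))
  rw [← (Subtype.ext hzx : z = (red hF hf hj g).1 x)]
  exact hz

theorem exists_lift {S : Finset ℕ} (hS : ∀ s ∈ S, j ≤ s ∧ s ≤ m)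
    (h : isomGroup (resForm B (perpPairs B e f j)) (resNorm N (perpPairs B e f j)))
    (hh : h ∈ stabS (resForm B (perpPairs B e f j)) (resNorm N (perpPairs B e f j))
      (shift hF hf hj e) (shiftSet S j)) :
    ∃ g : stab B N (pre f j), g.1 ∈ stabS B N e S ∧ red hF hf hj g = h := by
  set X : Submodule F V := pre e j ⊔ pre f j with hX
  let g := hf.isomProd (X := X) (pairs_nondeg hF hf hj) (1, h)
  have hgx : ∀ x ∈ X, (g : V ≃ₗ[F] V) x = x := fun x hx =>
    hf.isomProd_apply_left (X := X) (pairs_nondeg hF hf hj) (1, h) ⟨x, hx⟩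
  have hgm : ∀ x : perpPairs B e f j, (g : V ≃ₗ[F] V) x = (h.1 x : V) := fun x => by
    have := hf.isomProd_apply (X := X) (pairs_nondeg hF hf hj) (1, h) 0 x
    simpa using this
  have hgy : mv g (pre f j) = pre f j := mv_eq_of_le _ (by
    rintro _ ⟨x, hx, rfl⟩
    show (g : V ≃ₗ[F] V) x ∈ _
    rw [hgx x (Submodule.mem_sup_right hx)]
    exact hx)
  refine ⟨⟨g, hgy⟩, fun s hs => mv_eq_of_le _ ?_, ?_⟩
  · obtain ⟨hjs, hsm⟩ := hS s hs
    refine Submodule.map_le_iff_le_comap.2 (Submodule.span_le.2 ?_)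
    rintro _ ⟨a, rfl⟩
    show (g : V ≃ₗ[F] V) (e a) ∈ pre e s
    by_cases ha : (a : ℕ) < j
    · rw [hgx _ (Submodule.mem_sup_left (mem_pre ha))]; exact mem_pre a.2
    · have he : (shift hF hf hj e ((a : ℕ) - j) : V) = e a := by
        rw [shift_e hF hf hj (by omega)]; congr 1; omega
      rw [← he, hgm]
      have hi : s - j ∈ shiftSet S j :=
        Finset.mem_erase.2 ⟨by omega, Finset.mem_image.2 ⟨s, hs, rfl⟩⟩
      have hmap := map_pre_shift hF hf hj (i := s - j) (by omega)
      rw [show j + (s - j) = s by omega] at hmap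
      exact (hmap.le (Submodule.mem_map_of_mem
        (apply_mem h (hh _ hi) (mem_pre (show (a : ℕ) - j < s - j by omega))))).1
  · refine Subtype.ext (LinearEquiv.ext fun x => Subtype.ext ?_)
    rw [red_coe]
    show proj B e f j ((g : V ≃ₗ[F] V) x) = _
    rw [hgm, proj_eq_self hF hf hj (Subtype.prop _)]

end

end Cfsg.Agent.KnownB.Polar
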