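import Cfsg.Agent.KnownB.Polar.Degree
import Cfsg.Agent.KnownB.Polar.Centre
import Cfsg.Agent.KnownB.Polar.Descend
import Cfsg.Agent.Forms.OrthBridge

/-!
# Steinberg characters of the central quotients of large normal subgroups of isometry groups
-/

set_option autoImplicit false
set_option linter.unusedSectionVars false

namespace Cfsg.Agent.KnownB.Polar

open Cfsg Cfsg.Agent Cfsg.Agent.Forms Module
open Classical

universe u v w

variable {F : Type u} {V : Type v} [Field F] [AddCommGroup V] [Module F V] [Finite V]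
variable {σ : F →+* F} {B : V →ₛₗ[σ] V →ₗ[F] F} {N : V → F}

theorem exists_hasRank (hf : IsForm σ B N) : ∃ m, HasRank B N m := by
  have hne : (Finset.univ.filter fun W : Submodule F V => TS B N W).Nonempty :=
    ⟨⊥, Finset.mem_filter.2 ⟨Finset.mem_univ _, ts_bot hf⟩⟩
  obtain ⟨W, hW, hmax⟩ := Finset.exists_max_image _ (fun W : Submodule F V => finrank F W) hne
  exact ⟨finrank F W, ⟨W, (Finset.mem_filter.1 hW).2, rfl⟩,
    fun U hU => hmax U (Finset.mem_filter.2 ⟨Finset.mem_univ _, hU⟩)⟩

/-- The Steinberg character of the quotient by the centre. -/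
theorem steinberg_quotient [Finite F] (p : ℕ) [hp : Fact p.Prime] [CharP F p] (hf : IsForm σ B N)
    {H : Type w} [Group H] (j : H →* isomGroup B N) (hj : Function.Injective j)
    (hn : j.range.Normal) (hK : commutator (isomGroup B N) ≤ j.range)
    (hvan : ∀ x ∈ j.range, x ≠ 1 → (∃ k, x ^ p ^ k = 1) → lef x = 0) :
    ∃ η : H ⧸ Subgroup.center H → ℂ, IsIrrCharacter (H ⧸ Subgroup.center H) η ∧
      ∀ P : Sylow p (H ⧸ Subgroup.center H),
        η 1 = Nat.card P ∧ ∀ x : H ⧸ Subgroup.center H, x ∈ P → x ≠ 1 → η x = 0 := by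
  obtain ⟨m, hr⟩ := exists_hasRank hf
  obtain ⟨e, f, hF⟩ := exists_frame hf hr
  obtain ⟨a, ha⟩ := lef_one_pow p m hF hf hr
  set χ : isomGroup B N → ℂ := fun g => (-1) ^ m * (lef g : ℂ) with hχ
  have h1 : χ 1 = (p ^ a : ℕ) := by
    simp only [hχ, ha]
    push_cast
    rw [← mul_assoc, ← pow_add, Even.neg_one_pow ⟨m, rfl⟩, one_mul]
  have hirr : IsIrrCharacter (isomGroup B N) χ := by
    have key : χ = (fun g => (lef g : ℂ)) ∨ χ = -(fun g => (lef g : ℂ)) := by
      rcases neg_one_pow_eq_or ℂ m with h | h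
      · left; funext g; simp [hχ, h]
      · right; funext g; simp [hχ, h]
    have pos : ∀ ψ : isomGroup B N → ℂ, IsIrrCharacter (isomGroup B N) ψ → ψ 1 ≠ -((p ^ a : ℕ) : ℂ) := by
      intro ψ hψ h
      obtain ⟨n, hn0, hn⟩ := Chars.exists_irr_apply_one_eq hψ
      rw [hn] at h
      have h' : ((n : ℤ) : ℂ) = ((-((p ^ a : ℕ) : ℤ) : ℤ) : ℂ) := by push_cast at h ⊢; exact h
      have := Int.cast_injective h'
      have := pow_pos hp.out.pos a
      omega
    rcases lef_irr hF hf hr with h | h <;> rcases key with k | k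
    · rwa [k]
    · refine absurd ?_ (pos _ h)
      have hk := congrFun k 1
      simp only [Pi.neg_apply] at hk
      rw [← h1, hk, neg_neg]
    · refine absurd ?_ (pos _ h)
      have hk := congrFun k 1
      rw [Pi.neg_apply, ← hk, h1]
    · rwa [k]
  haveI : Finite H := Finite.of_injective j hj
  refine exists_steinberg_of_char hirr h1 j hj hn
    (fun x hx hx1 hxp => by simp only [hχ, hvan x hx hx1 hxp, Int.cast_zero, mul_zero]) fun hdvd z hz => ?_
  obtain ⟨x, hx⟩ := exists_prime_orderOf_dvd_card' p hdvd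
  have hx0 : lef x.1 = 0 := hvan _ x.2
    (fun h => by
      have : x = 1 := Subtype.ext h
      rw [this, orderOf_one] at hx
      exact hp.out.ne_one hx.symm)
    ⟨1, by rw [pow_one, ← Subgroup.coe_pow, ← hx, pow_orderOf_eq_one]; rfl⟩
  simp only [hχ]
  rw [lef_of_centralizes hF hf hr hn hK x.2 hx0 (z := z.1)
    (fun c hc => congrArg Subtype.val (Subgroup.mem_center_iff.1 hz ⟨c, hc⟩))]

/-! ### Unipotent elements -/

/-- `g - 1`. -/
def nilPart (g : isomGroup B N) : Module.End F V := ((g : V ≃ₗ[F] V) : Module.End F V) - 1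

theorem nilPart_apply (g : isomGroup B N) (x : V) : nilPart g x = (g : V ≃ₗ[F] V) x - x := rfl

theorem nilPart_perp (g : isomGroup B N) {r : V} (hr : (g : V ≃ₗ[F] V) r = r) (x : V) :
    B r (nilPart g x) = 0 := by
  rw [nilPart_apply, map_sub, sub_eq_zero]
  conv_lhs => rw [← hr]
  exact g.2.1 r x

theorem nilPart_pow (p : ℕ) [hp : Fact p.Prime] [CharP F p] {g : isomGroup B N} (hg : g ≠ 1) {k : ℕ}
    (hk : g ^ p ^ k = 1) : nilPart g ≠ 0 ∧ nilPart g ^ p ^ k = 0 := by
  have h0 : nilPart g ≠ 0 := fun h => hg (Subtype.ext (LinearEquiv.ext fun x => sub_eq_zero.1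
    (LinearMap.congr_fun h x)))
  refine ⟨h0, ?_⟩
  have : Nontrivial V := by
    by_contra hnt
    rw [not_nontrivial_iff_subsingleton] at hnt
    exact h0 (LinearMap.ext fun x => Subsingleton.elim _ _)
  have : CharP (Module.End F V) p :=
    charP_of_injective_algebraMap (FaithfulSMul.algebraMap_injective F (Module.End F V)) p
  rw [nilPart, sub_pow_char_pow_of_commute _ _ (Commute.one_right _), one_pow, sub_eq_zero]
  have h : ∀ n : ℕ, (((g : V ≃ₗ[F] V) : Module.End F V)) ^ n = (((g ^ n : isomGroup B N) : V ≃ₗ[F] V) : Module.End F V) := by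
    intro n
    induction n with
    | zero => rfl
    | succ n ih => rw [pow_succ, pow_succ, ih]; rfl
  rw [h, hk]
  rfl

/-- A fixed vector of the form `g w - w`. -/
theorem exists_fix_range (p : ℕ) [Fact p.Prime] [CharP F p] {g : isomGroup B N} (hg : g ≠ 1) {k : ℕ}
    (hk : g ^ p ^ k = 1) :
    ∃ w : V, nilPart g w ≠ 0 ∧ nilPart g (nilPart g w) = 0 ∧
      (nilPart g ^ 2 ≠ 0 → ∃ y, nilPart g y = w) := by
  obtain ⟨h0, hpow⟩ := nilPart_pow p hg hk
  set T := nilPart g
  have hex : ∃ i, T ^ i = 0 := ⟨_, hpow⟩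
  set i := Nat.find hex
  have hi : T ^ i = 0 := Nat.find_spec hex
  have hi2 : 2 ≤ i := by
    by_contra h
    have hV : ∀ x, T x = 0 := fun x => by
      interval_cases i
      · have := LinearMap.congr_fun hi x
        simp only [pow_zero, Module.End.one_apply, LinearMap.zero_apply] at this
        simp [this]
      · simpa using LinearMap.congr_fun hi x
    exact h0 (LinearMap.ext hV)
  obtain ⟨j, hj⟩ : ∃ j, i = j + 2 := ⟨i - 2, by omega⟩
  obtain ⟨v, hv⟩ : ∃ v, (T ^ (j + 1)) v ≠ 0 := by
    by_contra h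
    push Not at h
    exact Nat.find_min hex (show j + 1 < i by omega) (LinearMap.ext h)
  refine ⟨(T ^ j) v, ?_, ?_, fun h2 => ?_⟩
  · rwa [← Module.End.mul_apply, ← pow_succ']
  · rw [← Module.End.mul_apply, ← Module.End.mul_apply, mul_assoc, ← pow_succ', ← pow_succ',
      show j + 1 + 1 = i by omega, hi]
    rfl
  · rcases j with _ | j
    · exact absurd (by rw [show (2 : ℕ) = i by omega]; exact hi) h2
    · exact ⟨(T ^ j) v, by rw [← Module.End.mul_apply, ← pow_succ']⟩

theorem self_nilPart (hf : IsForm σ B N) (g : isomGroup B N) {w : V} (hz : nilPart g (nilPart g w) = 0) :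
    B (nilPart g w) (nilPart g w) = 0 :=
  nilPart_perp g (sub_eq_zero.1 hz) w

theorem lef_eq_zero_of_vector (p : ℕ) [Fact p.Prime] [CharP F p] (hf : IsForm σ B N) {g : isomGroup B N}
    (hg : g ≠ 1) {k : ℕ} (hk : g ^ p ^ k = 1) {w : V} (hw : nilPart g w ≠ 0)
    (hz : nilPart g (nilPart g w) = 0) (hN : N (nilPart g w) = 0) : lef g = 0 :=
  lef_eq_zero hf g (p ^ k) (nilPart_pow p hg hk).2 hw hN (sub_eq_zero.1 hz)
    fun r hr => nilPart_perp g hr w

/-- The case where isotropic vectors are singular. -/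
theorem lef_pElement (p : ℕ) [Fact p.Prime] [CharP F p] (hf : IsForm σ B N)
    (hiso : ∀ z, B z z = 0 → N z = 0) (g : isomGroup B N) (hg : g ≠ 1) (hk : ∃ k, g ^ p ^ k = 1) :
    lef g = 0 := by
  obtain ⟨k, hk⟩ := hk
  obtain ⟨w, hw, hz, -⟩ := exists_fix_range p hg hk
  exact lef_eq_zero_of_vector p hf hg hk hw hz (hiso _ (self_nilPart hf g hz))

section

variable {Q : QuadraticForm F V}

/-- Characteristic two: only reflections escape. -/
theorem lef_pElement_two [Finite F] [hp : CharP F 2] (hQ : (QuadraticMap.polarBilin Q).Nondegenerate)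
    (g : orthGroup Q) (hg : g ≠ 1) (hk : ∃ k, g ^ 2 ^ k = 1)
    (hrefl : ∀ v, Q v ≠ 0 → g ≠ Forms.reflection Q v) : lef g = 0 := by
  have : Fact (Nat.Prime 2) := ⟨Nat.prime_two⟩
  have hf := isForm_quadratic Q hQ
  obtain ⟨k, hk⟩ := hk
  have h2 : (2 : F) = 0 := CharTwo.two_eq_zero
  have hQT : ∀ y, Q (nilPart g y) = - QuadraticMap.polar Q ((g : V ≃ₗ[F] V) y) y := by
    intro y
    have h : Q ((g : V ≃ₗ[F] V) y) = Q y := g.2.2 y
    rw [nilPart_apply, sub_eq_add_neg, QuadraticMap.map_add Q, QuadraticMap.map_neg,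
      QuadraticMap.polar_neg_right, h]
    linear_combination Q y * h2
  by_cases hsq : nilPart g ^ 2 = 0
  · have hTT : ∀ x, nilPart g (nilPart g x) = 0 := fun x => by
      rw [← Module.End.mul_apply, ← sq, hsq]; rfl
    have hpol : ∀ x y, QuadraticMap.polar Q (nilPart g x) (nilPart g y) = 0 := fun x y =>
      nilPart_perp g (sub_eq_zero.1 (hTT x)) y
    suffices hs : ∃ w, nilPart g w ≠ 0 ∧ Q (nilPart g w) = 0 by
      obtain ⟨w, hw, hN⟩ := hs
      exact lef_eq_zero_of_vector 2 hf hg hk hw (hTT w) hN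
    obtain ⟨w, hw, -, -⟩ := exists_fix_range 2 hg hk
    by_contra hns
    push Not at hns
    by_cases hline : ∀ x, ∃ c : F, c • nilPart g w = nilPart g x
    · choose c hc using hline
      set z := nilPart g w
      have hQz : Q z ≠ 0 := hns w hw
      have hcadd : ∀ x y, c (x + y) = c x + c y := fun x y =>
        smul_left_injective F hw (by
          show c (x + y) • z = (c x + c y) • z
          rw [add_smul, hc, hc, hc, map_add])
      have hor : ∀ x, c x = 0 ∨ c x * Q z + QuadraticMap.polar Q z x = 0 := fun x => by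
        have h1 : Q ((g : V ≃ₗ[F] V) x) = Q x := g.2.2 x
        rw [show (g : V ≃ₗ[F] V) x = x + c x • z by rw [hc, nilPart_apply, add_sub_cancel],
          QuadraticMap.map_add Q, QuadraticMap.map_smul, QuadraticMap.polar_smul_right,
          QuadraticMap.polar_comm Q x z, smul_eq_mul, smul_eq_mul, add_assoc, add_eq_left] at h1
        refine mul_eq_zero.1 ?_
        linear_combination h1
      have hall : ∀ x, c x * Q z + QuadraticMap.polar Q z x = 0 := by
        intro x
        by_contra hx
        have hx0 : c x = 0 := (hor x).resolve_right hx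
        have hw1 : c w = 1 := smul_left_injective F hw (by simpa using hc w)
        have hw' : c w * Q z + QuadraticMap.polar Q z w = 0 :=
          (hor w).resolve_left (by rw [hw1]; exact one_ne_zero)
        rcases hor (x + w) with h | h
        · rw [hcadd, hx0, hw1, zero_add] at h; exact one_ne_zero h
        · rw [hcadd, QuadraticMap.polar_add_right] at h
          exact hx (by linear_combination h - hw')
      refine hrefl z hQz (orth_ext fun x => ?_)
      rw [Forms.reflection_apply, show (g : V ≃ₗ[F] V) x = x + c x • z by rw [hc, nilPart_apply, add_sub_cancel]]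
      rw [sub_eq_add_neg, ← neg_smul]
      congr 2
      field_simp
      linear_combination hall x
    · push Not at hline
      obtain ⟨x, hx⟩ := hline
      obtain ⟨s, hs⟩ := exists_sq_of_two_eq_zero h2 (Q (nilPart g x) / Q (nilPart g w))
      have hzero : Q (nilPart g (x + s • w)) = 0 := by
        rw [map_add, map_smul, QuadraticMap.map_add Q, QuadraticMap.map_smul,
          QuadraticMap.polar_smul_right, hpol, smul_eq_mul, smul_eq_mul, mul_zero, add_zero, ← sq, hs,
          div_mul_cancel₀ _ (hns w hw)]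
        linear_combination Q (nilPart g x) * h2
      refine hns _ ?_ hzero
      intro h0
      rw [map_add, map_smul, add_eq_zero_iff_eq_neg, ← neg_smul] at h0
      exact hx (-s) h0.symm
  · obtain ⟨w, hw, hz, hy⟩ := exists_fix_range 2 hg hk
    obtain ⟨y, rfl⟩ := hy hsq
    refine lef_eq_zero_of_vector 2 hf hg hk hw hz ?_
    rw [hQT, show (g : V ≃ₗ[F] V) (nilPart g y) = nilPart g (nilPart g y) + nilPart g y by
      rw [nilPart_apply g (nilPart g y), sub_add_cancel], QuadraticMap.polar_add_left,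
      show QuadraticMap.polar Q (nilPart g (nilPart g y)) (nilPart g y) = 0 from
        nilPart_perp g (sub_eq_zero.1 hz) y,
      QuadraticMap.polar_self, two_smul]
    linear_combination (-Q (nilPart g y)) * h2

end

end Cfsg.Agent.KnownB.Polar
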