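import Cfsg.Agent.KnownB.Polar.Average
import Cfsg.Agent.Chars.Gen

/-!
# The norm of the Lefschetz class function
-/

set_option autoImplicit false
set_option linter.unusedSectionVars false

namespace Cfsg.Agent.KnownB.Polar

open Cfsg.Agent.Forms Module
open Classical

universe u v

variable {F : Type u} {V : Type v} [Field F] [AddCommGroup V] [Module F V] [Finite V]
variable {σ : F →+* F} {B : V →ₛₗ[σ] V →ₗ[F] F} {N : V → F}

theorem shiftSet_eq_iff {S : Finset ℕ} {m k j : ℕ} (hS : ∀ s ∈ S, k ≤ s ∧ s ≤ m) (hk : k ∈ S)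
    (hj : 1 ≤ j) (hjk : j ≤ k) :
    shiftSet S j = Finset.Icc 1 (m - j) ↔ (j = k ∨ j + 1 = k) ∧ S = Finset.Icc k m := by
  constructor
  · intro h
    have hj' : j = k ∨ j + 1 = k := by
      rcases eq_or_lt_of_le hjk with h1 | h1
      · exact Or.inl h1
      · right
        have h2 : (1 : ℕ) ∈ shiftSet S j := by
          rw [h]; exact Finset.mem_Icc.2 ⟨le_rfl, by have := hS k hk; omega⟩
        obtain ⟨s, hs, he⟩ := Finset.mem_image.1 (Finset.mem_of_mem_erase h2)
        have := hS s hs
        omega
    refine ⟨hj', Finset.ext fun a => ⟨fun ha => Finset.mem_Icc.2 (hS a ha), fun ha => ?_⟩⟩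
    obtain ⟨h1, h2⟩ := Finset.mem_Icc.1 ha
    rcases eq_or_lt_of_le h1 with rfl | h3
    · exact hk
    have h4 : a - j ∈ shiftSet S j := by
      rw [h]; exact Finset.mem_Icc.2 ⟨by omega, by omega⟩
    obtain ⟨s, hs, he⟩ := Finset.mem_image.1 (Finset.mem_of_mem_erase h4)
    have := hS s hs
    exact (show s = a by omega) ▸ hs
  · rintro ⟨hj', rfl⟩
    ext a
    simp only [shiftSet, Finset.mem_erase, Finset.mem_image, Finset.mem_Icc]
    constructor
    · rintro ⟨ha, s, hs, rfl⟩; omega
    · rintro ⟨h1, h2⟩; exact ⟨by omega, a + j, by omega, by omega⟩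

theorem pre_opp {m : ℕ} {e f : ℕ → V} (hF : Frame B N m e f) (hf : IsForm σ B N) {j k : ℕ} (hjk : j ≤ k)
    (hkm : k ≤ m) : (pre f j : Submodule F V) ⊓ perp B (pre e k) = ⊥ := by
  rw [Submodule.eq_bot_iff]
  rintro x ⟨hx1, hx2⟩
  have hm : x ∈ perpPairs B e f j := (mem_perpPairs hF hf (hjk.trans hkm)).2 fun a ha =>
    ⟨hx2 _ (mem_pre (by omega)), (ts_pre_f hF hf (hjk.trans hkm) _ (mem_pre ha)).2 x hx1⟩
  rw [← proj_eq_self hF hf (hjk.trans hkm) hm, proj_kills hF hf (hjk.trans hkm) (Submodule.mem_sup_right hx1)]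

theorem avg_lef (m : ℕ) : ∀ {V : Type v} [AddCommGroup V] [Module F V] [Finite V]
    {B : V →ₛₗ[σ] V →ₗ[F] F} {N : V → F} {e f : ℕ → V}, Frame B N m e f → IsForm σ B N → HasRank B N m →
    ∀ S : Finset ℕ, S ⊆ Finset.Icc 1 m →
      Avg (stabS B N e S) lef ((-1) ^ m * if S = Finset.Icc 1 m then 1 else 0) := by
  induction m using Nat.strong_induction_on with
  | _ m ih =>
    intro V _ _ _ B N e f hF hf hr S hS
    rcases S.eq_empty_or_nonempty with rfl | hne
    · have h := avg_upper hF hf hr m (S := ∅) (t := 0) (by omega) (by simp) (Nat.zero_le _)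
        (fun g _ => by rw [pre_zero]; exact Submodule.map_bot _)
      refine avg_congr (φ := fun g => upper g (pre e 0)) ?_ (fun g _ => by rw [pre_zero, upper_bot])
      convert h using 1
      rcases Nat.eq_zero_or_pos m with rfl | hm
      · simp
      · rw [if_neg (fun h => by
          have : (1 : ℕ) ∈ Finset.Icc 1 m := Finset.mem_Icc.2 ⟨le_rfl, hm⟩
          rw [← h] at this
          exact absurd this (Finset.notMem_empty _)), if_neg (by omega), mul_zero]
    set k := S.min' hne with hkdef
    have hkS : k ∈ S := S.min'_mem hne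
    obtain ⟨hk1, hkm⟩ := Finset.mem_Icc.1 (hS hkS)
    have hSk : ∀ s ∈ S, k ≤ s ∧ s ≤ m := fun s hs => ⟨S.min'_le s hs, (Finset.mem_Icc.1 (hS hs)).2⟩
    let O : ℕ → Finset (Submodule F V) := fun j => Finset.univ.filter fun y =>
      TS B N y ∧ y ⊓ perp B (pre e k) = ⊥ ∧ finrank F y = j
    let ε : ℕ → ℤ := fun j => (-1) ^ (m - j) * if (j = k ∨ j + 1 = k) ∧ S = Finset.Icc k m then 1 else 0
    refine avg_congr (φ := fun g => - ∑ j ∈ Finset.Icc 1 k, ∑ y ∈ (O j).filter (fun y => mv g y = y), upper g y)
      ?_ fun g hg => ?_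
    · have hsum := avg_neg (stabS B N e S) (avg_sum (stabS B N e S) (Finset.Icc 1 k)
        (fun j g => ∑ y ∈ (O j).filter (fun y => mv g y = y), upper g y) ε fun j hj => ?_)
      · convert hsum using 1
        by_cases hSI : S = Finset.Icc k m
        · simp only [ε, and_iff_left hSI]
          rcases eq_or_lt_of_le hk1 with h1 | h1
          · rw [← h1, Finset.Icc_self, Finset.sum_singleton, if_pos (Or.inl rfl), if_pos (by rw [hSI, ← h1])]
            have : (-1 : ℤ) ^ m = - (-1) ^ (m - 1) := by
              conv_lhs => rw [show m = m - 1 + 1 by omega, pow_succ]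
              ring
            rw [this]; ring
          · rw [if_neg (fun h => by
              have h2 : (1 : ℕ) ∈ S := by rw [h]; exact Finset.mem_Icc.2 ⟨le_rfl, by omega⟩
              have := hSk 1 h2
              omega), mul_zero, eq_comm, neg_eq_zero,
              Finset.sum_eq_add_of_mem (k - 1) k (Finset.mem_Icc.2 ⟨by omega, by omega⟩)
                (Finset.mem_Icc.2 ⟨hk1, le_rfl⟩) (by omega) (fun c _ hc => by
                  rw [if_neg (by omega), mul_zero])]
            rw [if_pos (Or.inr (by omega)), if_pos (Or.inl rfl), mul_one, mul_one,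
              show m - (k - 1) = m - k + 1 by omega, pow_succ]
            ring
        · rw [Finset.sum_eq_zero (fun c _ => by simp [ε, hSI]), neg_zero, if_neg (fun h => hSI ?_), mul_zero]
          have h2 : k = 1 := by
            have h3 : (1 : ℕ) ∈ S := by rw [h]; exact Finset.mem_Icc.2 ⟨le_rfl, by omega⟩
            have := hSk 1 h3
            omega
          rw [h2, h]
      obtain ⟨hj1, hjk⟩ := Finset.mem_Icc.1 hj
      have hjm : j ≤ m := hjk.trans hkm
      refine avg_orbit _ (y₀ := pre f j) ?_ (fun g hg y hy => ?_) (fun y hy => ?_) (fun g y => upper g y)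
        (fun g _ h y => upper_conj g h y) ?_
      · simp only [O, Finset.mem_filter]
        exact ⟨Finset.mem_univ _, ts_pre_f hF hf hjm, pre_opp hF hf hjk hkm, finrank_pre_f hF hjm⟩
      · simp only [O, Finset.mem_filter] at hy ⊢
        refine ⟨Finset.mem_univ _, ts_mv g hy.2.1, ?_, by rw [finrank_mv, hy.2.2.2]⟩
        rw [← hg k hkS, ← mv_perp, ← mv_inf, hy.2.2.1]
        exact Submodule.map_bot _
      · simp only [O, Finset.mem_filter] at hy
        exact exists_opp hF hf hSk hkm hjk hy.2.1 hy.2.2.1 hy.2.2.2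
      · have hf' := isForm_perpPairs hF hf hjm
        have hS' : ∀ s ∈ S, j ≤ s ∧ s ≤ m := fun s hs => ⟨hjk.trans (hSk s hs).1, (hSk s hs).2⟩
        have hsub : shiftSet S j ⊆ Finset.Icc 1 (m - j) := fun a ha => by
          obtain ⟨h0, hi⟩ := Finset.mem_erase.1 ha
          obtain ⟨s, hs, rfl⟩ := Finset.mem_image.1 hi
          have := hS' s hs
          exact Finset.mem_Icc.2 ⟨by omega, by omega⟩
        have hIH := ih (m - j) (by omega) (frame_shift hF hf hjm) hf' (hasRank_perpPairs hF hf hjm hr) _ hsub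
        let π : ↥(stabS B N e S ⊓ stab B N (pre f j)) →*
            ↥(stabS (resForm B (perpPairs B e f j)) (resNorm N (perpPairs B e f j)) (shift hF hf hjm e)
              (shiftSet S j)) :=
          ((red hF hf hjm).comp (Subgroup.inclusion inf_le_right)).codRestrict _
            (fun g => red_mem hF hf hjm hS' _ g.2.1)
        have hπ : Function.Surjective π := fun h => by
          obtain ⟨g, hg1, hg2⟩ := exists_lift hF hf hjm hS' h.1 h.2
          exact ⟨⟨g.1, hg1, g.2⟩, Subtype.ext hg2⟩
        have h := avg_surj π hπ (fun x => lef x.1) hIH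
        rw [Avg]
        simp only [ε]
        rw [← if_congr (shiftSet_eq_iff hSk hkS hj1 hjk) rfl rfl, ← h]
        exact Finset.sum_congr rfl fun g _ => upper_link hF hf hjm ⟨g.1, g.2.2⟩
    · have hk' : pre e k ∈ fixSet g := mem_fixSet.2 ⟨ts_pre hF hf hkm, fun h => by
        have := finrank_pre hF hkm
        rw [h, finrank_bot] at this
        omega, hg k hkS⟩
      rw [lef_contract hf g hk', neg_inj,
        ← Finset.sum_fiberwise_of_maps_to (t := Finset.Icc 1 k) (g := fun W : Submodule F V => finrank F W)]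
      · refine Finset.sum_congr rfl fun j hj => Finset.sum_congr ?_ fun _ _ => rfl
        ext y
        simp only [O, Finset.mem_filter, mem_fixSet, Finset.mem_univ, true_and]
        constructor
        · rintro ⟨⟨hT, hi, hd⟩, hfx⟩
          refine ⟨⟨⟨hT, fun hb => ?_, hfx⟩, hi⟩, hd⟩
          subst hb
          rw [finrank_bot] at hd
          have := (Finset.mem_Icc.1 hj).1
          omega
        · rintro ⟨⟨⟨hT, -, hfx⟩, hi⟩, hd⟩
          exact ⟨⟨hT, hi, hd⟩, hfx⟩
      · intro y hy
        obtain ⟨h1, h2⟩ := Finset.mem_filter.1 hy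
        exact Finset.mem_Icc.2 ⟨Nat.one_le_iff_ne_zero.2 fun h => (mem_fixSet.1 h1).2.1 (Submodule.finrank_eq_zero.1 h),
          opp_le hF hf h2⟩

section

variable {m : ℕ} {e f : ℕ → V} (hF : Frame B N m e f) (hf : IsForm σ B N) (hr : HasRank B N m)
include hF hf hr

theorem avg_lef_upper (d : ℕ) : ∀ {S : Finset ℕ} {t : ℕ}, m - t = d → S ⊆ Finset.Icc 1 t → t ≤ m →
    (S = ∅ ∧ t = 0 ∨ t ∈ S) →
    Avg (stabS B N e S) (fun g => lef g * upper g (pre e t))
      ((-1) ^ t * if S = Finset.Icc 1 t then 1 else 0) := by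
  induction d using Nat.strong_induction_on with
  | _ d ih =>
    intro S t hd hS ht hmax
    have hfix : ∀ g ∈ stabS B N e S, mv g (pre e t) = pre e t := fun g hg => by
      rcases hmax with ⟨-, rfl⟩ | h
      · rw [pre_zero]; exact Submodule.map_bot _
      · exact hg t h
    have hSt : ∀ a ∈ S, a ≤ t := fun a ha => (Finset.mem_Icc.1 (hS ha)).2
    have hA := avg_lef m hF hf hr S (hS.trans (Finset.Icc_subset_Icc le_rfl ht))
    have h := avg_expand hF hf hr hSt ht hfix lef lef_conj
      (fun s => (-1) ^ s * if insert s S = Finset.Icc 1 s then 1 else 0) hA (fun s hs => by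
        obtain ⟨h1, h2⟩ := Finset.mem_Ioc.1 hs
        refine ih (m - s) (by omega) rfl ?_ h2 (Or.inr (Finset.mem_insert_self _ _))
        exact Finset.insert_subset (Finset.mem_Icc.2 ⟨by omega, le_rfl⟩)
          (hS.trans (Finset.Icc_subset_Icc le_rfl h1.le)))
    convert h using 1
    have hins : ∀ s ∈ Finset.Ioc t m, (insert s S = Finset.Icc 1 s ↔ s = t + 1 ∧ S = Finset.Icc 1 t) := by
      intro s hs
      obtain ⟨h1, h2⟩ := Finset.mem_Ioc.1 hs
      constructor
      · intro he
        have hst : s = t + 1 := by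
          by_contra hne
          have : t + 1 ∈ insert s S := by rw [he]; exact Finset.mem_Icc.2 ⟨by omega, by omega⟩
          rcases Finset.mem_insert.1 this with h3 | h3
          · omega
          · have := hSt _ h3; omega
        refine ⟨hst, le_antisymm hS fun a ha => ?_⟩
        obtain ⟨a1, a2⟩ := Finset.mem_Icc.1 ha
        have : a ∈ insert s S := by rw [he]; exact Finset.mem_Icc.2 ⟨a1, by omega⟩
        exact (Finset.mem_insert.1 this).resolve_left (by omega)
      · rintro ⟨rfl, rfl⟩
        ext a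
        simp only [Finset.mem_insert, Finset.mem_Icc]
        omega
    by_cases htm : t = m
    · subst htm
      rw [Finset.Ioc_self, Finset.sum_empty, sub_zero]
    · have hne : S ≠ Finset.Icc 1 m := fun h => by
        have : m ∈ S := by rw [h]; exact Finset.mem_Icc.2 ⟨by omega, le_rfl⟩
        have := hSt _ this; omega
      rw [if_neg hne, mul_zero, zero_sub, Finset.sum_eq_single (t + 1)]
      · simp only [hins (t + 1) (Finset.mem_Ioc.2 ⟨by omega, by omega⟩), true_and]
        rw [pow_succ]; ring
      · intro s hs hne'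
        rw [if_neg (fun he => hne' ((hins s hs).1 he).1), mul_zero]
      · intro h; exact absurd (Finset.mem_Ioc.2 ⟨by omega, by omega⟩) h

theorem sum_lef_sq : ∑ g : isomGroup B N, lef g * lef g = Fintype.card (isomGroup B N) := by
  have h := avg_lef_upper hF hf hr m (S := ∅) (t := 0) (by omega) (by simp) (Nat.zero_le _) (Or.inl ⟨rfl, rfl⟩)
  rw [Avg, if_pos (by simp), pow_zero, mul_one, mul_one] at h
  simp only [pre_zero, upper_bot] at h
  have htop : stabS B N e ∅ = ⊤ := eq_top_iff.2 fun g _ s hs => absurd hs (Finset.notMem_empty _)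
  have e1 : Fintype.card ↥(stabS B N e ∅) = Fintype.card (isomGroup B N) :=
    Fintype.card_congr (Equiv.subtypeUnivEquiv fun g => by rw [htop]; trivial)
  rw [e1] at h
  rw [← h]
  exact (Fintype.sum_equiv (Equiv.subtypeUnivEquiv fun g => by rw [htop]; trivial) _ _ fun g => rfl).symm

end

end Cfsg.Agent.KnownB.Polar
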