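import Cfsg.Agent.KnownB.Polar.Frame

/-!
# The perpendicular space of part of a frame
-/

set_option autoImplicit false
set_option linter.unusedSectionVars false

namespace Cfsg.Agent.KnownB.Polar

open Cfsg.Agent.Forms Module
open Classical

universe u v

variable {F : Type u} {V : Type v} [Field F] [AddCommGroup V] [Module F V] [Finite V]
variable {σ : F →+* F} {B : V →ₛₗ[σ] V →ₗ[F] F} {N : V → F}

/-- The perpendicular space of the first `j` hyperbolic pairs. -/
abbrev perpPairs (B : V →ₛₗ[σ] V →ₗ[F] F) (e f : ℕ → V) (j : ℕ) : Submodule F V :=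
  perp B (pre e j ⊔ pre f j)

/-- The projection onto it. -/
noncomputable def proj (B : V →ₛₗ[σ] V →ₗ[F] F) (e f : ℕ → V) (j : ℕ) : V →ₗ[F] V :=
  LinearMap.id - (∑ b : Fin j, (B (e b)).smulRight (f b)) -
    ∑ b : Fin j, ((B (f b) (e b))⁻¹ • B (f b)).smulRight (e b)

theorem proj_apply (e f : ℕ → V) (j : ℕ) (x : V) : proj B e f j x =
    x - (∑ b : Fin j, B (e b) x • f b) - ∑ b : Fin j, ((B (f b) (e b))⁻¹ * B (f b) x) • e b := by
  simp [proj, LinearMap.sum_apply]

section

variable {m : ℕ} {e f : ℕ → V} (hF : Frame B N m e f) (hf : IsForm σ B N) {j : ℕ} (hj : j ≤ m)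
include hF hf hj

theorem mem_perpPairs {x : V} :
    x ∈ perpPairs B e f j ↔ ∀ a < j, B (e a) x = 0 ∧ B (f a) x = 0 := by
  rw [perpPairs, pre, pre, ← Submodule.span_union, mem_perp_span]
  constructor
  · exact fun h a ha => ⟨h _ (Or.inl ⟨⟨a, ha⟩, rfl⟩), h _ (Or.inr ⟨⟨a, ha⟩, rfl⟩)⟩
  · rintro h _ (⟨a, rfl⟩ | ⟨a, rfl⟩)
    exacts [(h a a.2).1, (h a a.2).2]

theorem be_proj {a : ℕ} (ha : a < j) (x : V) : B (e a) (proj B e f j x) = 0 := by
  rw [proj_apply]
  simp only [map_sub, map_sum, map_smul, smul_eq_mul]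
  rw [Finset.sum_eq_single (⟨a, ha⟩ : Fin j), Finset.sum_eq_zero]
  · rw [hF.ef a (by omega) a (by omega), if_pos rfl, mul_one, sub_self, sub_zero]
  · intro b _
    rw [hF.ee a (by omega) b (by omega), mul_zero]
  · intro b _ hb
    rw [hF.ef a (by omega) b (by omega), if_neg (fun h => hb (Fin.ext h.symm)), mul_zero]
  · simp

theorem bf_proj {a : ℕ} (ha : a < j) (x : V) : B (f a) (proj B e f j x) = 0 := by
  rw [proj_apply]
  simp only [map_sub, map_sum, map_smul, smul_eq_mul]
  rw [Finset.sum_eq_zero (fun b _ => by rw [hF.ff a (by omega) b (by omega), mul_zero]), sub_zero,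
    Finset.sum_eq_single (⟨a, ha⟩ : Fin j)]
  · rw [mul_comm _ (B (f a) x), mul_assoc, inv_mul_cancel₀ (bfe_ne hF hf (by omega : a < m)), mul_one, sub_self]
  · intro b _ hb
    rw [bfe hF hf (by omega) (by omega) (fun h => hb (Fin.ext h.symm)), mul_zero]
  · simp

theorem proj_mem (x : V) : proj B e f j x ∈ perpPairs B e f j :=
  (mem_perpPairs hF hf hj).2 fun _ ha => ⟨be_proj hF hf hj ha x, bf_proj hF hf hj ha x⟩

theorem proj_eq_self {x : V} (hx : x ∈ perpPairs B e f j) : proj B e f j x = x := by
  rw [proj_apply, Finset.sum_eq_zero, Finset.sum_eq_zero, sub_zero, sub_zero]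
  · intro b _; rw [((mem_perpPairs hF hf hj).1 hx b b.2).2, mul_zero, zero_smul]
  · intro b _; rw [((mem_perpPairs hF hf hj).1 hx b b.2).1, zero_smul]

theorem proj_f {a : ℕ} (ha : a < j) : proj B e f j (f a) = 0 := by
  rw [proj_apply, Finset.sum_eq_single (⟨a, ha⟩ : Fin j), Finset.sum_eq_zero]
  · rw [hF.ef a (by omega) a (by omega), if_pos rfl, one_smul, sub_self, sub_zero]
  · intro b _; rw [hF.ff b (by omega) a (by omega), mul_zero, zero_smul]
  · intro b _ hb
    rw [hF.ef b (by omega) a (by omega), if_neg (fun h => hb (Fin.ext h)), zero_smul]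
  · simp

theorem proj_e {a : ℕ} (ha : a < j) : proj B e f j (e a) = 0 := by
  rw [proj_apply, Finset.sum_eq_zero (fun b _ => by rw [hF.ee b (by omega) a (by omega), zero_smul]), sub_zero,
    Finset.sum_eq_single (⟨a, ha⟩ : Fin j)]
  · rw [inv_mul_cancel₀ (bfe_ne hF hf (by omega : a < m)), one_smul, sub_self]
  · intro b _ hb
    rw [bfe hF hf (by omega) (by omega) (fun h => hb (Fin.ext h)), mul_zero, zero_smul]
  · simp

theorem proj_kills {x : V} (hx : x ∈ (pre e j ⊔ pre f j : Submodule F V)) : proj B e f j x = 0 := by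
  rw [← LinearMap.mem_ker]
  refine (sup_le ?_ ?_ : pre e j ⊔ pre f j ≤ LinearMap.ker (proj B e f j)) hx
  · exact Submodule.span_le.2 (by rintro _ ⟨a, rfl⟩; exact proj_e hF hf hj a.2)
  · exact Submodule.span_le.2 (by rintro _ ⟨a, rfl⟩; exact proj_f hF hf hj a.2)

theorem pairs_nondeg (u : V) (hu : u ∈ (pre e j ⊔ pre f j : Submodule F V))
    (h : ∀ v ∈ (pre e j ⊔ pre f j : Submodule F V), B u v = 0) : u = 0 := by
  have hm : u ∈ perpPairs B e f j := fun x hx => hf.refl _ _ (h x hx)
  rw [← proj_eq_self hF hf hj hm, proj_kills hF hf hj hu]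

theorem perpPairs_nondeg (u : V) (hu : u ∈ perpPairs B e f j) (h : ∀ v ∈ perpPairs B e f j, B u v = 0) :
    u = 0 :=
  hf.perp_nondeg (pairs_nondeg hF hf hj) u hu h

theorem isForm_perpPairs :
    IsForm σ (resForm B (perpPairs B e f j)) (resNorm N (perpPairs B e f j)) :=
  hf.restrict (perpPairs_nondeg hF hf hj)

/-- Elements orthogonal to the `f`-part differ from their projection by an element of it. -/
theorem proj_split {x : V} (hx : x ∈ perp B (pre f j)) : x - proj B e f j x ∈ (pre f j : Submodule F V) := by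
  have h : ∀ b : Fin j, B (f b) x = 0 := fun b => hx _ (mem_pre b.2)
  rw [proj_apply]
  simp only [h, mul_zero, zero_smul, Finset.sum_const_zero, sub_zero, sub_sub_cancel]
  exact Submodule.sum_mem _ fun b _ => Submodule.smul_mem _ _ (mem_pre b.2)

theorem perpPairs_le : perpPairs B e f j ≤ perp B (pre f j) := perp_antitone le_sup_right

theorem proj_isom {x y : V} (hx : x ∈ perp B (pre f j)) (hy : y ∈ perp B (pre f j)) :
    B (proj B e f j x) (proj B e f j y) = B x y ∧ N (proj B e f j x) = N x := by
  have hT := ts_pre_f hF hf hj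
  set a := x - proj B e f j x with ha
  set b := y - proj B e f j y with hb
  have ha' := proj_split hF hf hj hx
  have hb' := proj_split hF hf hj hy
  have hpx : proj B e f j x ∈ perp B (pre f j) := perpPairs_le hF hf hj (proj_mem hF hf hj x)
  have hpy : proj B e f j y ∈ perp B (pre f j) := perpPairs_le hF hf hj (proj_mem hF hf hj y)
  constructor
  · conv_rhs => rw [show x = proj B e f j x + a by simp [ha], show y = proj B e f j y + b by simp [hb]]
    simp only [map_add, LinearMap.add_apply]
    rw [hf.refl _ _ (hpx b hb'), hpy a ha', (hT a ha').2 b hb']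
    ring
  · conv_rhs => rw [show x = proj B e f j x + a by simp [ha]]
    rw [n_add hf (hT a ha').1 (hf.refl _ _ (hpx a ha'))]

theorem hasRank_perpPairs (hr : HasRank B N m) :
    HasRank (resForm B (perpPairs B e f j)) (resNorm N (perpPairs B e f j)) (m - j) := by
  constructor
  · refine ⟨Submodule.span F (Set.range fun a : Fin (m - j) =>
      (⟨proj B e f j (e (j + a)), proj_mem hF hf hj _⟩ : perpPairs B e f j)), ?_, ?_⟩
    · have hmem : ∀ a : Fin (m - j), e (j + a) ∈ perpPairs B e f j := fun a =>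
        (mem_perpPairs hF hf hj).2 fun b hb => ⟨hF.ee b (by omega) _ (by omega),
          bfe hF hf (by omega) (by omega) (by omega)⟩
      refine ts_span (isForm_perpPairs hF hf hj) ?_ ?_
      · rintro _ ⟨a, rfl⟩
        show N (proj B e f j (e (j + a))) = 0
        rw [proj_eq_self hF hf hj (hmem a), hF.ne _ (by omega)]
      · rintro _ ⟨a, rfl⟩ _ ⟨b, rfl⟩
        show B (proj B e f j (e (j + a))) (proj B e f j (e (j + b))) = 0
        rw [proj_eq_self hF hf hj (hmem a), proj_eq_self hF hf hj (hmem b), hF.ee _ (by omega) _ (by omega)]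
    · have hmem : ∀ a : Fin (m - j), e (j + a) ∈ perpPairs B e f j := fun a =>
        (mem_perpPairs hF hf hj).2 fun b hb => ⟨hF.ee b (by omega) _ (by omega),
          bfe hF hf (by omega) (by omega) (by omega)⟩
      rw [finrank_span_eq_card, Fintype.card_fin]
      refine LinearIndependent.of_comp (perpPairs B e f j).subtype ?_
      have : ((perpPairs B e f j).subtype ∘ fun a : Fin (m - j) =>
          (⟨proj B e f j (e (j + a)), proj_mem hF hf hj _⟩ : perpPairs B e f j)) =
          (fun a : Fin m => e a) ∘ fun a : Fin (m - j) => (⟨j + a, by omega⟩ : Fin m) := by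
        funext a
        exact proj_eq_self hF hf hj (hmem a)
      rw [this]
      exact (li_e hF le_rfl).comp _ fun a b h => Fin.ext (by simpa using congrArg Fin.val h)
  · intro U hU
    have hUT : TS B N (U.map (perpPairs B e f j).subtype) := by
      rintro _ ⟨x, hx, rfl⟩
      refine ⟨(hU x hx).1, ?_⟩
      rintro _ ⟨y, hy, rfl⟩
      exact (hU x hx).2 y hy
    have hle : U.map (perpPairs B e f j).subtype ≤ perp B (pre f j) := (Submodule.map_subtype_le (perpPairs B e f j) U).trans (perpPairs_le hF hf hj)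
    have := hr.2 _ (ts_sup hf (ts_pre_f hF hf hj) hUT hle)
    have hdisj : (pre f j : Submodule F V) ⊓ U.map (perpPairs B e f j).subtype = ⊥ := by
      rw [Submodule.eq_bot_iff]
      rintro x ⟨hx1, hx2⟩
      rw [← proj_eq_self hF hf hj (Submodule.map_subtype_le (perpPairs B e f j) U hx2),
        proj_kills hF hf hj (Submodule.mem_sup_right hx1)]
    have h2 := Submodule.finrank_sup_add_finrank_inf_eq (pre f j : Submodule F V) (U.map (perpPairs B e f j).subtype)
    rw [hdisj, finrank_bot, finrank_pre_f hF hj, Submodule.finrank_map_subtype_eq] at h2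
    omega

/-- The first vectors of the shifted frame. -/
noncomputable def shift (v : ℕ → V) : ℕ → perpPairs B e f j := fun a =>
  ⟨proj B e f j (v (j + a)), proj_mem hF hf hj _⟩

theorem shift_e {a : ℕ} (ha : j + a < m) : (shift hF hf hj e a : V) = e (j + a) :=
  proj_eq_self hF hf hj ((mem_perpPairs hF hf hj).2 fun b hb =>
    ⟨hF.ee b (by omega) _ ha, bfe hF hf (by omega) ha (by omega)⟩)

theorem shift_f {a : ℕ} (ha : j + a < m) : (shift hF hf hj f a : V) = f (j + a) :=
  proj_eq_self hF hf hj ((mem_perpPairs hF hf hj).2 fun b hb =>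
    ⟨by rw [hF.ef b (by omega) _ ha, if_neg (by omega)], hF.ff b (by omega) _ ha⟩)

theorem frame_shift : Frame (resForm B (perpPairs B e f j)) (resNorm N (perpPairs B e f j)) (m - j)
    (shift hF hf hj e) (shift hF hf hj f) where
  ne a ha := by
    show N (shift hF hf hj e a : V) = 0
    rw [shift_e hF hf hj (by omega), hF.ne _ (by omega)]
  nf a ha := by
    show N (shift hF hf hj f a : V) = 0
    rw [shift_f hF hf hj (by omega), hF.nf _ (by omega)]
  ee a ha b hb := by
    show B (shift hF hf hj e a : V) (shift hF hf hj e b : V) = 0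
    rw [shift_e hF hf hj (by omega), shift_e hF hf hj (by omega), hF.ee _ (by omega) _ (by omega)]
  ff a ha b hb := by
    show B (shift hF hf hj f a : V) (shift hF hf hj f b : V) = 0
    rw [shift_f hF hf hj (by omega), shift_f hF hf hj (by omega), hF.ff _ (by omega) _ (by omega)]
  ef a ha b hb := by
    show B (shift hF hf hj e a : V) (shift hF hf hj f b : V) = _
    rw [shift_e hF hf hj (by omega), shift_f hF hf hj (by omega), hF.ef _ (by omega) _ (by omega)]
    simp

theorem map_pre_shift {i : ℕ} (hi : j + i ≤ m) :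
    (pre (shift hF hf hj e) i).map (perpPairs B e f j).subtype = pre e (j + i) ⊓ perpPairs B e f j := by
  refine le_antisymm ?_ ?_
  · rw [pre, Submodule.map_span_le]
    rintro _ ⟨a, rfl⟩
    refine ⟨?_, Subtype.prop _⟩
    show (shift hF hf hj e a : V) ∈ pre e (j + i)
    rw [shift_e hF hf hj (by omega)]
    exact mem_pre (by omega)
  · rintro x ⟨hx1, hx2⟩
    rw [← proj_eq_self hF hf hj hx2]
    refine (show (pre e (j + i) : Submodule F V).map (proj B e f j) ≤ _ from ?_) (Submodule.mem_map_of_mem hx1)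
    rw [pre, Submodule.map_span_le]
    rintro _ ⟨a, rfl⟩
    by_cases ha : (a : ℕ) < j
    · rw [proj_e hF hf hj ha]; exact Submodule.zero_mem _
    · exact ⟨shift hF hf hj e (a - j), mem_pre (by omega), by
        show proj B e f j (e (j + (a - j))) = _
        congr 2; omega⟩

end

end Cfsg.Agent.KnownB.Polar
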