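import Mathlib
import Cfsg.Agent.Forms.Group
import Cfsg.Agent.KnownB.Polar.Euler

/-!
# Totally singular subspaces, frames and the fixed point posets of isometries
-/

set_option autoImplicit false
set_option linter.unusedSectionVars false

namespace Cfsg.Agent.KnownB.Polar

open Cfsg.Agent.Forms Module
open Classical

universe u v

variable {F : Type u} {V : Type v} [Field F] [AddCommGroup V] [Module F V] [Finite V]
variable {σ : F →+* F} {B : V →ₛₗ[σ] V →ₗ[F] F} {N : V → F}

instance finDim : FiniteDimensional F V := Module.Finite.of_finite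

instance finite_submodules : Finite (Submodule F V) :=
  Finite.of_injective (fun W : Submodule F V => (W : Set V)) SetLike.coe_injective

noncomputable instance fintype_submodules : Fintype (Submodule F V) := Fintype.ofFinite _

/-- A totally singular subspace. -/
def TS (B : V →ₛₗ[σ] V →ₗ[F] F) (N : V → F) (W : Submodule F V) : Prop :=
  ∀ x ∈ W, N x = 0 ∧ ∀ y ∈ W, B x y = 0

/-- Polar rank. -/
def HasRank (B : V →ₛₗ[σ] V →ₗ[F] F) (N : V → F) (m : ℕ) : Prop :=
  (∃ W, TS B N W ∧ finrank F W = m) ∧ ∀ W, TS B N W → finrank F W ≤ m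

theorem n_zero (hf : IsForm σ B N) : N 0 = 0 := by
  simpa using hf.diff_eq 0 0 rfl rfl

theorem b_self (hf : IsForm σ B N) {x : V} (hx : N x = 0) : B x x = 0 := by
  have := hf.self_eq x 0 (by rw [hx, n_zero hf])
  simpa using this

theorem n_smul (hf : IsForm σ B N) {x : V} (hx : N x = 0) (c : F) : N (c • x) = 0 := by
  rw [hf.smul_eq c x 0 (by rw [hx, n_zero hf]), smul_zero, n_zero hf]

theorem n_add (hf : IsForm σ B N) {x y : V} (hy : N y = 0) (h : B x y = 0) : N (x + y) = N x := by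
  rw [hf.add_eq x x y 0 rfl (by rw [hy, n_zero hf]) (by simp [h]), add_zero]

theorem ts_bot (hf : IsForm σ B N) : TS B N (⊥ : Submodule F V) := by
  intro x hx
  rw [Submodule.mem_bot] at hx
  subst hx
  exact ⟨n_zero hf, fun y hy => by simp⟩

theorem ts_le {W U : Submodule F V} (h : TS B N W) (hU : U ≤ W) : TS B N U :=
  fun x hx => ⟨(h x (hU hx)).1, fun y hy => (h x (hU hx)).2 y (hU hy)⟩

theorem ts_le_perp {W : Submodule F V} (h : TS B N W) : W ≤ perp B W := fun _ hy x hx => (h x hx).2 _ hy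

theorem ts_sup (hf : IsForm σ B N) {W U : Submodule F V} (hW : TS B N W) (hU : TS B N U)
    (h : U ≤ perp B W) : TS B N (W ⊔ U) := by
  intro x hx
  obtain ⟨a, ha, b, hb, rfl⟩ := Submodule.mem_sup.1 hx
  refine ⟨by rw [n_add hf (hU b hb).1 (h hb a ha), (hW a ha).1], fun y hy => ?_⟩
  obtain ⟨c, hc, d, hd, rfl⟩ := Submodule.mem_sup.1 hy
  simp only [map_add, LinearMap.add_apply]
  rw [(hW a ha).2 c hc, (hU b hb).2 d hd, h hd a ha, hf.refl _ _ (h hb c hc)]
  simp

theorem ts_span (hf : IsForm σ B N) {s : Set V} (hN : ∀ x ∈ s, N x = 0)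
    (hB : ∀ x ∈ s, ∀ y ∈ s, B x y = 0) : TS B N (Submodule.span F s) := by
  have hp : Submodule.span F s ≤ perp B (Submodule.span F s) := by
    refine Submodule.span_le.2 fun y hy => ?_
    intro x hx
    induction hx using Submodule.span_induction with
    | mem x hx => exact hB x hx y hy
    | zero => simp
    | add a b _ _ ha hb => rw [map_add, LinearMap.add_apply, ha, hb, add_zero]
    | smul c a _ ha => rw [LinearMap.map_smulₛₗ, LinearMap.smul_apply, ha, smul_zero]
  intro x hx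
  refine ⟨?_, fun y hy => hp hy x hx⟩
  induction hx using Submodule.span_induction with
  | mem x hx => exact hN x hx
  | zero => exact n_zero hf
  | add a b ha' hb' ha hb => rw [n_add hf hb (hp hb' a ha'), ha]
  | smul c a _ ha => exact n_smul hf ha c

theorem ts_singleton (hf : IsForm σ B N) {z : V} (hz : N z = 0) : TS B N (Submodule.span F {z}) :=
  ts_span hf (by simp [hz]) (by simp [b_self hf hz])

/-- The action on subspaces. -/
def mv (g : isomGroup B N) (W : Submodule F V) : Submodule F V :=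
  W.map ((g : V ≃ₗ[F] V) : V →ₗ[F] V)

theorem mv_mul (g h : isomGroup B N) (W : Submodule F V) : mv (g * h) W = mv g (mv h W) := by
  rw [mv, mv, mv, ← Submodule.map_comp]
  rfl

theorem mv_one (W : Submodule F V) : mv (1 : isomGroup B N) W = W := by
  rw [mv]
  exact Submodule.map_id W

theorem mv_inv_mv (g : isomGroup B N) (W : Submodule F V) : mv g⁻¹ (mv g W) = W := by
  rw [← mv_mul, inv_mul_cancel, mv_one]

theorem mv_mv_inv (g : isomGroup B N) (W : Submodule F V) : mv g (mv g⁻¹ W) = W := by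
  rw [← mv_mul, mul_inv_cancel, mv_one]

theorem mv_mono (g : isomGroup B N) {W U : Submodule F V} (h : W ≤ U) : mv g W ≤ mv g U := Submodule.map_mono h

theorem mv_lt_iff (g : isomGroup B N) {W U : Submodule F V} : mv g W < mv g U ↔ W < U :=
  Submodule.map_strictMono_of_injective ((g : V ≃ₗ[F] V).injective) |> fun h =>
    ⟨fun hl => lt_of_le_not_ge
        (by simpa [mv_inv_mv] using mv_mono g⁻¹ hl.le)
        (fun hle => not_le_of_gt hl (mv_mono g hle)), fun hl => h hl⟩

theorem finrank_mv (g : isomGroup B N) (W : Submodule F V) : finrank F (mv g W) = finrank F W :=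
  (g : V ≃ₗ[F] V).finrank_map_eq W

theorem mv_eq_of_le (g : isomGroup B N) {W : Submodule F V} (h : mv g W ≤ W) : mv g W = W :=
  Submodule.eq_of_le_of_finrank_eq h (finrank_mv g W)

theorem mv_sup (g : isomGroup B N) (W U : Submodule F V) : mv g (W ⊔ U) = mv g W ⊔ mv g U := Submodule.map_sup ..

theorem mv_inf (g : isomGroup B N) (W U : Submodule F V) : mv g (W ⊓ U) = mv g W ⊓ mv g U :=
  Submodule.map_inf _ (g : V ≃ₗ[F] V).injective

theorem mem_mv_iff (g : isomGroup B N) {W : Submodule F V} {x : V} :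
    (g : V ≃ₗ[F] V) x ∈ mv g W ↔ x ∈ W :=
  ⟨fun ⟨y, hy, h⟩ => (g : V ≃ₗ[F] V).injective h ▸ hy, fun h => Submodule.mem_map_of_mem h⟩

theorem apply_mem (g : isomGroup B N) {W : Submodule F V} (h : mv g W = W) {x : V} (hx : x ∈ W) :
    (g : V ≃ₗ[F] V) x ∈ W := h ▸ (mem_mv_iff g).2 hx

theorem mv_perp (g : isomGroup B N) (W : Submodule F V) : mv g (perp B W) = perp B (mv g W) := by
  ext x
  obtain ⟨y, rfl⟩ := (g : V ≃ₗ[F] V).surjective x
  rw [mem_mv_iff]
  constructor
  · rintro h _ ⟨a, ha, rfl⟩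
    exact (g.2.1 a y).trans (h a ha)
  · intro h a ha
    rw [← g.2.1 a y]
    exact h _ ((mem_mv_iff g).2 ha)

theorem ts_mv (g : isomGroup B N) {W : Submodule F V} (h : TS B N W) : TS B N (mv g W) := by
  rintro _ ⟨x, hx, rfl⟩
  refine ⟨(g.2.2 x).trans (h x hx).1, ?_⟩
  rintro _ ⟨y, hy, rfl⟩
  exact (g.2.1 x y).trans ((h x hx).2 y hy)

theorem mv_ne_bot (g : isomGroup B N) {W : Submodule F V} (h : W ≠ ⊥) : mv g W ≠ ⊥ := fun e =>
  h (by rw [← mv_inv_mv g W, e]; exact Submodule.map_bot _)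

/-- The poset of non-zero totally singular subspaces fixed by `g`. -/
noncomputable def fixSet (g : isomGroup B N) : Finset (Submodule F V) :=
  Finset.univ.filter fun W => TS B N W ∧ W ≠ ⊥ ∧ mv g W = W

theorem mem_fixSet {g : isomGroup B N} {W : Submodule F V} :
    W ∈ fixSet g ↔ TS B N W ∧ W ≠ ⊥ ∧ mv g W = W := by simp [fixSet]

/-- Reduced Euler characteristic of the fixed points above a subspace. -/
noncomputable def upper (g : isomGroup B N) (E : Submodule F V) : ℤ :=
  euler ((fixSet g).filter (E < ·))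

/-- Reduced Euler characteristic of the fixed points. -/
noncomputable def lef (g : isomGroup B N) : ℤ := euler (fixSet g)

theorem upper_bot (g : isomGroup B N) : upper g ⊥ = lef g := by
  rw [upper, lef, Finset.filter_true_of_mem fun W hW => bot_lt_iff_ne_bot.2 (mem_fixSet.1 hW).2.1]

theorem fixSet_conj (k g : isomGroup B N) : fixSet (k * g * k⁻¹) = (fixSet g).image (mv k) := by
  ext W
  simp only [mem_fixSet, Finset.mem_image]
  constructor
  · rintro ⟨h1, h2, h3⟩
    refine ⟨mv k⁻¹ W, ⟨ts_mv _ h1, mv_ne_bot _ h2, ?_⟩, mv_mv_inv k W⟩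
    conv_rhs => rw [← h3]
    rw [← mv_mul, ← mv_mul]
    congr 1
    group
  · rintro ⟨U, ⟨h1, h2, h3⟩, rfl⟩
    refine ⟨ts_mv _ h1, mv_ne_bot _ h2, ?_⟩
    rw [mv_mul, mv_mul, mv_inv_mv, h3]

theorem upper_conj (k g : isomGroup B N) (E : Submodule F V) :
    upper (k * g * k⁻¹) (mv k E) = upper g E := by
  rw [upper, upper, fixSet_conj, Finset.filter_image]
  rw [← euler_image (mv k) ((fixSet g).filter (E < ·)) (fun x _ y _ => mv_lt_iff k) (fun x _ y _ h => by
    rw [← mv_inv_mv k x, h, mv_inv_mv])]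
  congr 1
  ext W
  simp only [Finset.mem_image, Finset.mem_filter, mv_lt_iff]

theorem lef_conj (k g : isomGroup B N) : lef (k * g * k⁻¹) = lef g := by
  rw [← upper_bot, ← upper_bot, ← upper_conj k g ⊥]
  congr 1
  exact (Submodule.map_bot _).symm

theorem upper_expand (g : isomGroup B N) (E : Submodule F V) :
    upper g E = 1 - ∑ W ∈ (fixSet g).filter (E < ·), upper g W := by
  rw [upper, euler_eq]
  congr 1
  refine Finset.sum_congr rfl fun W hW => ?_
  rw [upper, Finset.filter_filter]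
  congr 1
  exact Finset.filter_congr fun U _ => ⟨fun h => h.2, fun h => ⟨(Finset.mem_filter.1 hW).2.trans h, h⟩⟩

/-- The subspaces not opposite to a fixed singular subspace do not contribute. -/
theorem lef_contract (hf : IsForm σ B N) (g : isomGroup B N) {W₀ : Submodule F V} (hW : W₀ ∈ fixSet g) :
    lef g = - ∑ y ∈ (fixSet g).filter (fun W => W ⊓ perp B W₀ = ⊥), upper g y := by
  obtain ⟨hT, hne, hfx⟩ := mem_fixSet.1 hW
  have hpf : mv g (perp B W₀) = perp B W₀ := by rw [mv_perp, hfx]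
  set C := (fixSet g).filter (fun W => ¬ W ⊓ perp B W₀ = ⊥) with hC
  have hC0 : euler C = 0 := by
    set q1 := C.filter (fun W => W ≤ perp B W₀) with hq1
    set q2 := q1.filter (fun W => W₀ ≤ W) with hq2
    rw [euler_retract_down (q := q1) (Finset.filter_subset _ _) (fun W => W ⊓ perp B W₀) ?_,
      euler_retract_up (q := q2) (Finset.filter_subset _ _) (fun W => W ⊔ W₀) ?_]
    · refine euler_eq_zero_of_bot (t := W₀) ?_ fun x hx => (Finset.mem_filter.1 hx).2
      simp only [hq2, hq1, hC, Finset.mem_filter]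
      exact ⟨⟨⟨hW, fun h => hne (le_bot_iff.1 (h ▸ le_inf le_rfl (ts_le_perp hT)))⟩, ts_le_perp hT⟩, le_rfl⟩
    · intro x hx hxq
      simp only [hq1, hC, Finset.mem_filter, mem_fixSet] at hx
      obtain ⟨⟨⟨hxT, hx0, hxf⟩, -⟩, hxp⟩ := hx
      have hnle : ¬ W₀ ≤ x := fun h => hxq (by
        simp only [hq2, hq1, hC, Finset.mem_filter, mem_fixSet]
        refine ⟨⟨⟨⟨hxT, hx0, hxf⟩, ?_⟩, hxp⟩, h⟩
        rw [inf_eq_left.2 hxp]; exact hx0)
      refine ⟨?_, left_lt_sup.2 hnle, fun y hy hxy => sup_le hxy.le (Finset.mem_filter.1 hy).2⟩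
      simp only [hq2, hq1, hC, Finset.mem_filter, mem_fixSet]
      have hle : x ⊔ W₀ ≤ perp B W₀ := sup_le hxp (ts_le_perp hT)
      refine ⟨⟨⟨⟨?_, fun h => hx0 (sup_eq_bot_iff.1 h).1, by rw [mv_sup, hxf, hfx]⟩, ?_⟩, hle⟩, le_sup_right⟩
      · rw [sup_comm]; exact ts_sup hf hT hxT hxp
      · rw [inf_eq_left.2 hle]; exact fun h => hx0 (sup_eq_bot_iff.1 h).1
    · intro x hx hxq
      simp only [hC, Finset.mem_filter, mem_fixSet] at hx
      obtain ⟨⟨hxT, hx0, hxf⟩, hxi⟩ := hx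
      have hnle : ¬ x ≤ perp B W₀ := fun h => hxq (by
        simp only [hq1, hC, Finset.mem_filter, mem_fixSet]; exact ⟨⟨⟨hxT, hx0, hxf⟩, hxi⟩, h⟩)
      refine ⟨?_, inf_lt_left.2 hnle, fun y hy hyx => le_inf hyx.le (Finset.mem_filter.1 hy).2⟩
      simp only [hq1, hC, Finset.mem_filter, mem_fixSet]
      refine ⟨⟨⟨ts_le hxT inf_le_left, hxi, by rw [mv_inf, hxf, hpf]⟩, ?_⟩, inf_le_right⟩
      rw [inf_assoc, inf_idem]; exact hxi
  rw [lef, euler_split (Finset.filter_subset _ _) ?_ hC0]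
  · congr 1
    refine Finset.sum_congr ?_ fun _ _ => rfl
    ext W
    simp only [hC, Finset.mem_sdiff, Finset.mem_filter]
    tauto
  · intro x hx y hy hxy
    simp only [hC, Finset.mem_filter] at hx ⊢
    exact ⟨hy, fun h => hx.2 (le_bot_iff.1 (h ▸ inf_le_inf_right _ hxy.le))⟩

/-- Unipotent elements with a singular fixed vector orthogonal to all fixed vectors. -/
theorem lef_eq_zero (hf : IsForm σ B N) (g : isomGroup B N) (k : ℕ)
    (hk : (((g : V ≃ₗ[F] V) : Module.End F V) - 1) ^ k = 0) {z : V} (hz : z ≠ 0) (hNz : N z = 0)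
    (hgz : (g : V ≃ₗ[F] V) z = z) (hperp : ∀ r, (g : V ≃ₗ[F] V) r = r → B r z = 0) : lef g = 0 := by
  set T := (((g : V ≃ₗ[F] V) : Module.End F V) - 1) with hTdef
  have hTapp : ∀ x, T x = (g : V ≃ₗ[F] V) x - x := fun x => rfl
  let R : Submodule F V := LinearMap.ker T
  have hR : ∀ x, x ∈ R ↔ (g : V ≃ₗ[F] V) x = x := fun x => by
    rw [LinearMap.mem_ker, hTapp, sub_eq_zero]
  have hRf : mv g R = R := mv_eq_of_le g (by
    rintro _ ⟨x, hx, rfl⟩
    rw [SetLike.mem_coe, hR] at hx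
    rw [hR]
    show (g : V ≃ₗ[F] V) ((g : V ≃ₗ[F] V) x) = (g : V ≃ₗ[F] V) x
    rw [hx, hx])
  have hfixed : ∀ W : Submodule F V, mv g W = W → W ≠ ⊥ → W ⊓ R ≠ ⊥ := by
    intro W hW hW0
    obtain ⟨x, hxW, hx0⟩ := Submodule.exists_mem_ne_zero_of_ne_bot hW0
    have : ∀ i (x : V), x ∈ W → x ≠ 0 → (T ^ i) x = 0 → W ⊓ R ≠ ⊥ := by
      intro i
      induction i with
      | zero => intro x _ hx0 h; exact absurd (by simpa using h) hx0
      | succ i ih =>
        intro x hxW hx0 h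
        by_cases hT0 : T x = 0
        · exact fun hb => hx0 ((Submodule.eq_bot_iff _).1 hb x ⟨hxW, LinearMap.mem_ker.2 hT0⟩)
        · refine ih (T x) ?_ hT0 (by rwa [pow_succ, Module.End.mul_apply] at h)
          rw [hTapp]
          exact sub_mem (apply_mem g hW hxW) hxW
    exact this k x hxW hx0 (by rw [hk]; rfl)
  set Z := Submodule.span F {z} with hZ
  have hZT : TS B N Z := ts_singleton hf hNz
  have hZR : Z ≤ R := Submodule.span_le.2 (Set.singleton_subset_iff.2 ((hR z).2 hgz))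
  have hZf : mv g Z = Z := mv_eq_of_le g (by
    rintro _ ⟨x, hx, rfl⟩
    obtain ⟨c, rfl⟩ := Submodule.mem_span_singleton.1 hx
    show (g : V ≃ₗ[F] V) (c • z) ∈ Z
    rw [map_smul, hgz]
    exact Submodule.smul_mem _ _ (Submodule.mem_span_singleton_self z))
  have hZ0 : Z ≠ ⊥ := by simp [hZ, hz]
  set q1 := (fixSet g).filter (fun W => W ≤ R) with hq1
  set q2 := q1.filter (fun W => Z ≤ W) with hq2
  rw [lef, euler_retract_down (q := q1) (Finset.filter_subset _ _) (fun W => W ⊓ R) ?_,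
    euler_retract_up (q := q2) (Finset.filter_subset _ _) (fun W => W ⊔ Z) ?_]
  · refine euler_eq_zero_of_bot (t := Z) ?_ fun x hx => (Finset.mem_filter.1 hx).2
    simp only [hq2, hq1, Finset.mem_filter, mem_fixSet]
    exact ⟨⟨⟨hZT, hZ0, hZf⟩, hZR⟩, le_rfl⟩
  · intro x hx hxq
    simp only [hq1, Finset.mem_filter, mem_fixSet] at hx
    obtain ⟨⟨hxT, hx0, hxf⟩, hxR⟩ := hx
    have hnle : ¬ Z ≤ x := fun h => hxq (by
      simp only [hq2, hq1, Finset.mem_filter, mem_fixSet]; exact ⟨⟨⟨hxT, hx0, hxf⟩, hxR⟩, h⟩)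
    refine ⟨?_, left_lt_sup.2 hnle, fun y hy hxy => sup_le hxy.le (Finset.mem_filter.1 hy).2⟩
    simp only [hq2, hq1, Finset.mem_filter, mem_fixSet]
    refine ⟨⟨⟨ts_sup hf hxT hZT ?_, fun h => hx0 (sup_eq_bot_iff.1 h).1, by rw [mv_sup, hxf, hZf]⟩,
      sup_le hxR hZR⟩, le_sup_right⟩
    refine Submodule.span_le.2 (Set.singleton_subset_iff.2 fun a ha => ?_)
    exact hperp a ((hR a).1 (hxR ha))
  · intro x hx hxq
    obtain ⟨hxT, hx0, hxf⟩ := mem_fixSet.1 hx
    have hnle : ¬ x ≤ R := fun h => hxq (Finset.mem_filter.2 ⟨hx, h⟩)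
    refine ⟨?_, inf_lt_left.2 hnle, fun y hy hyx => le_inf hyx.le (Finset.mem_filter.1 hy).2⟩
    simp only [hq1, Finset.mem_filter, mem_fixSet]
    exact ⟨⟨ts_le hxT inf_le_left, hfixed x hxf hx0, by rw [mv_inf, hxf, hRf]⟩, inf_le_right⟩

end Cfsg.Agent.KnownB.Polar
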